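import Mathlib
/-!
# Averages of complex functions over finite types
-/
set_option autoImplicit false

namespace Cfsg.Agent.Hall

/-- the average of a function -/
noncomputable def av {ι : Type*} (f : ι → ℂ) : ℂ := (Nat.card ι : ℂ)⁻¹ * ∑ᶠ i, f i

variable {ι κ : Type*}

theorem av_eq [Fintype ι] (f : ι → ℂ) : av f = (Nat.card ι : ℂ)⁻¹ * ∑ i, f i := by
  rw [av, finsum_eq_sum_of_fintype]

theorem av_equiv (e : ι ≃ κ) {f : ι → ℂ} {g : κ → ℂ} (h : ∀ i, f i = g (e i)) : av f = av g := by
  rw [av, av, Nat.card_congr e, finsum_congr h, finsum_comp_equiv e]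

theorem av_congr {f g : ι → ℂ} (h : ∀ i, f i = g i) : av f = av g := by rw [funext h]

theorem av_zero : av (fun _ : ι => (0 : ℂ)) = 0 := by simp [av]

theorem exists_of_av_ne_zero {f : ι → ℂ} (h : av f ≠ 0) : ∃ i, f i ≠ 0 := by
  by_contra h'
  push Not at h'
  exact h ((av_congr h').trans av_zero)

variable [Finite ι] [Finite κ]

theorem av_const [Nonempty ι] (c : ℂ) : av (fun _ : ι => c) = c := by
  cases nonempty_fintype ι
  have : (Nat.card ι : ℂ) ≠ 0 := Nat.cast_ne_zero.2 Nat.card_pos.ne'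
  rw [av_eq, Finset.sum_const, Finset.card_univ, ← Nat.card_eq_fintype_card, nsmul_eq_mul,
    inv_mul_cancel_left₀ this]

theorem av_add (f g : ι → ℂ) : av (fun i => f i + g i) = av f + av g := by
  cases nonempty_fintype ι
  simp only [av_eq, Finset.sum_add_distrib, mul_add]

theorem mul_av (c : ℂ) (f : ι → ℂ) : c * av f = av fun i => c * f i := by
  cases nonempty_fintype ι
  simp only [av_eq, ← Finset.mul_sum]; ring

theorem av_mul (c : ℂ) (f : ι → ℂ) : av f * c = av fun i => f i * c := by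
  simp only [mul_comm _ c, mul_av]

theorem av_sum {α : Type*} (s : Finset α) (f : α → ι → ℂ) :
    av (fun i => ∑ a ∈ s, f a i) = ∑ a ∈ s, av (f a) := by
  cases nonempty_fintype ι
  simp only [av_eq, ← Finset.mul_sum]
  rw [Finset.sum_comm]

theorem av_prod (f : ι × κ → ℂ) : av f = av fun i => av fun j => f (i, j) := by
  cases nonempty_fintype ι
  cases nonempty_fintype κ
  simp only [av_eq, ← Finset.mul_sum, Fintype.sum_prod_type, Nat.card_prod, Nat.cast_mul, mul_inv,
    mul_assoc]

theorem av_comm (f : ι → κ → ℂ) : (av fun i => av fun j => f i j) = av fun j => av fun i => f i j := by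
  rw [← av_prod fun p : ι × κ => f p.1 p.2, ← av_prod fun p : κ × ι => f p.2 p.1]
  exact av_equiv (Equiv.prodComm _ _) fun _ => rfl

theorem av_conj (f : ι → ℂ) : (starRingEnd ℂ) (av f) = av fun i => (starRingEnd ℂ) (f i) := by
  cases nonempty_fintype ι
  simp [av_eq]

theorem av_surj {M N : Type*} [AddGroup M] [AddGroup N] [Finite M] (p : M →+ N)
    (hp : Function.Surjective p) (f : N → ℂ) : av (fun m => f (p m)) = av f := by
  have : Finite N := Finite.of_surjective p hp
  have h1 : ∀ b, av (fun m => f (p m)) = av fun m => f (p m + b) := fun b => by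
    obtain ⟨s, rfl⟩ := hp b
    exact (av_equiv (Equiv.addRight s) fun m => by simp).symm
  rw [← av_const (ι := N) (av fun m => f (p m)), av_congr h1, av_comm, ← av_const (ι := M) (av f)]
  exact av_congr fun m => av_equiv (Equiv.addLeft (p m)) fun _ => rfl

theorem av_vanish {F V : Type*} [Field F] [AddCommGroup V] [Module F V] [Finite V] {ψ : AddChar F ℂ}
    (hψ : ψ ≠ 1) {μ : V →ₗ[F] F} {W : Submodule F V} (hW : ¬ W ≤ LinearMap.ker μ) {g : V → ℂ}
    (hg : ∀ b, ∀ w ∈ W, g (b + w) = g b) : av (fun b => g b * ψ (μ b)) = 0 := by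
  obtain ⟨a, ha⟩ : ∃ a, ψ a ≠ 1 := by
    by_contra h
    push Not at h
    exact hψ (AddChar.ext _ _ h)
  obtain ⟨w, hw, hw'⟩ := SetLike.not_le_iff_exists.1 hW
  rw [LinearMap.mem_ker] at hw'
  have h1 : av (fun b => g b * ψ (μ b)) * ψ a = av fun b => g b * ψ (μ b) := by
    rw [av_mul]
    refine av_equiv (Equiv.addRight ((a / μ w) • w)) fun b => ?_
    rw [Equiv.coe_addRight, hg _ _ (W.smul_mem _ hw), map_add, map_smul, smul_eq_mul,
      div_mul_cancel₀ _ hw', AddChar.map_add_eq_mul, mul_assoc]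
  by_contra h
  exact ha (mul_left_cancel₀ h (h1.trans (mul_one _).symm))

end Cfsg.Agent.Hall
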