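import Cfsg.Agent.GLn.ElemDiv
/-!
# The Hall algebra of class functions on endomorphisms of finite vector spaces
-/
set_option autoImplicit false
set_option linter.unusedSectionVars false

namespace Cfsg.Agent.Hall
open Module Cfsg.Agent.GLn Polynomial

universe u

/-- a finite dimensional space with an endomorphism -/
structure Obj (F : Type u) [Field F] where
  V : Type u
  [acg : AddCommGroup V]
  [mod : Module F V]
  [fd : FiniteDimensional F V]
  x : End F V

attribute [instance] Obj.acg Obj.mod Obj.fd

/-- similarity -/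
def objSetoid (F : Type u) [Field F] : Setoid (Obj F) :=
  ⟨fun A B => Sim A.x B.x, ⟨fun _ => Sim.refl _, Sim.symm, Sim.trans⟩⟩

/-- similarity classes -/
def Cls (F : Type u) [Field F] : Type (u + 1) := Quotient (objSetoid F)

variable {F : Type u} [Field F]
variable {V : Type u} [AddCommGroup V] [Module F V] [FiniteDimensional F V]
  {A : Type u} [AddCommGroup A] [Module F A] [FiniteDimensional F A]
  {B : Type u} [AddCommGroup B] [Module F B] [FiniteDimensional F B]

/-- the class of an endomorphism -/
def cl (x : End F V) : Cls F := Quotient.mk _ ⟨V, x⟩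

theorem cl_eq_iff {x : End F V} {a : End F A} : cl x = cl a ↔ Sim x a := Quotient.eq

theorem cl_eq {x : End F V} {a : End F A} (e : V ≃ₗ[F] A) (h : ∀ v, e (x v) = a (e v)) :
    cl x = cl a := cl_eq_iff.2 (sim_iff.2 ⟨e, h⟩)

theorem cl_eq_of_bij {x : End F V} {a : End F A} (e : V →ₗ[F] A) (he : Function.Bijective e)
    (h : ∀ v, e (x v) = a (e v)) : cl x = cl a := cl_eq (LinearEquiv.ofBijective e he) h

theorem cls_ind {P : Cls F → Prop}
    (h : ∀ (V : Type u) [AddCommGroup V] [Module F V] [FiniteDimensional F V] (x : End F V), P (cl x))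
    (c : Cls F) : P c := by
  induction c using Quotient.ind with
  | _ A => exact h A.V A.x

theorem sim_of_finrank_ker {x : End F V} {a : End F A} (h0 : finrank F V = finrank F A)
    (h : ∀ P : F[X], finrank F (LinearMap.ker (aeval x P)) = finrank F (LinearMap.ker (aeval a P))) :
    Sim x a := by
  classical
  obtain ⟨M, hM⟩ := exists_matrix_sim (n := Fin (finrank F V)) x (by simp)
  obtain ⟨N, hN⟩ := exists_matrix_sim (n := Fin (finrank F V)) a (by simp [h0])
  refine hM.symm.trans (Sim.trans (isConj_iff_sim.1 (isConj_iff_elemDiv.2 ?_)) hN)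
  have h1 := hasED_elemDiv M
  have h2 := hasED_elemDiv N
  ext ⟨P, k⟩
  by_cases hP : Irreducible P ∧ P.Monic ∧ 0 < k
  · obtain ⟨p1, p2, p3⟩ := hP
    obtain ⟨k, rfl⟩ : ∃ j, k = j + 1 := ⟨k - 1, by omega⟩
    have hk : ∀ j, ((elemDiv M).map fun x => if x.1 = P then min x.2 j else 0).sum =
        ((elemDiv N).map fun x => if x.1 = P then min x.2 j else 0).sum := fun j =>
      Nat.eq_of_mul_eq_mul_right p1.natDegree_pos (by
        rw [← h1.finrank_ker_pow p1 p2 j, ← h2.finrank_ker_pow p1 p2 j, (hM.aeval _).finrank_ker,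
          (hN.aeval _).finrank_ker, h])
    have e1 := count_second_difference (elemDiv M) P k
    have e2 := count_second_difference (elemDiv N) P k
    rw [hk, hk, hk] at e1
    omega
  · rw [Multiset.count_eq_zero_of_notMem fun hx => hP (h1.1 _ hx),
      Multiset.count_eq_zero_of_notMem fun hx => hP (h2.1 _ hx)]

theorem aeval_dualMap (x : End F V) (P : F[X]) :
    aeval (x.dualMap : End F (Dual F V)) P = (aeval x P : End F V).dualMap := by
  induction P using Polynomial.induction_on with
  | C a => ext f v; simp [Algebra.algebraMap_eq_smul_one]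
  | add p q hp hq => rw [map_add, map_add, hp, hq]; ext f v; simp
  | monomial n a h =>
    rw [pow_succ, ← mul_assoc, map_mul, h, aeval_X, mul_comm (C a * X ^ n), map_mul (aeval x) X, aeval_X]
    rfl

theorem cl_dualMap (x : End F V) : cl (x.dualMap : End F (Dual F V)) = cl x := by
  refine cl_eq_iff.2 (sim_of_finrank_ker Subspace.dual_finrank_eq fun P => ?_)
  rw [aeval_dualMap]
  have h1 := LinearMap.finrank_range_add_finrank_ker (aeval x P : End F V).dualMap
  have h2 := LinearMap.finrank_range_add_finrank_ker (aeval x P : End F V)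
  rw [LinearMap.finrank_range_dualMap_eq_finrank_range, Subspace.dual_finrank_eq] at h1
  omega

/-- invariant subspaces -/
abbrev Inv (x : End F V) (W : Submodule F V) : Prop := ∀ v ∈ W, x v ∈ W

open Classical in
/-- the class of the restriction -/
noncomputable def sub (x : End F V) (W : Submodule F V) : Cls F :=
  if h : Inv x W then cl (x.restrict h) else cl x

open Classical in
/-- the class of the induced map on the quotient -/
noncomputable def quo (x : End F V) (W : Submodule F V) : Cls F :=
  if h : Inv x W then cl (W.mapQ W x h) else cl x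

theorem inv_range {x : End F V} {a : End F A} {i : A →ₗ[F] V} (h : ∀ v, i (a v) = x (i v)) :
    Inv x (LinearMap.range i) := by
  rintro _ ⟨v, rfl⟩
  exact ⟨_, h v⟩

theorem inv_ker {x : End F V} {b : End F B} {p : V →ₗ[F] B} (h : ∀ v, p (x v) = b (p v)) :
    Inv x (LinearMap.ker p) := fun v hv => by
  rw [LinearMap.mem_ker] at hv ⊢
  rw [h, hv, map_zero]

theorem sub_eq {x : End F V} {a : End F A} {W : Submodule F V} (i : A →ₗ[F] V)
    (hi : Function.Injective i) (hW : LinearMap.range i = W) (h : ∀ v, i (a v) = x (i v)) :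
    sub x W = cl a := by
  subst hW
  rw [sub, dif_pos (inv_range h)]
  refine (cl_eq (x := a) (LinearEquiv.ofInjective i hi) fun v => ?_).symm
  exact Subtype.ext (h v)

theorem quo_eq {x : End F V} {b : End F B} {W : Submodule F V} (p : V →ₗ[F] B)
    (hp : Function.Surjective p) (hW : LinearMap.ker p = W) (h : ∀ v, p (x v) = b (p v)) :
    quo x W = cl b := by
  subst hW
  rw [quo, dif_pos (inv_ker h)]
  refine cl_eq (p.quotKerEquivOfSurjective hp) fun v => ?_
  obtain ⟨v, rfl⟩ := Submodule.mkQ_surjective _ v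
  exact h v

theorem sub_of_inv {x : End F V} {W : Submodule F V} (h : Inv x W) : sub x W = cl (x.restrict h) :=
  dif_pos h

theorem quo_of_inv {x : End F V} {W : Submodule F V} (h : Inv x W) : quo x W = cl (W.mapQ W x h) :=
  dif_pos h

theorem Inv.map {x : End F V} {a : End F A} {i : A →ₗ[F] V} (h : ∀ v, i (a v) = x (i v))
    {K : Submodule F A} (hK : Inv a K) : Inv x (K.map i) := by
  rintro _ ⟨v, hv, rfl⟩
  exact ⟨_, hK v hv, h v⟩

theorem Inv.comap {x : End F V} {a : End F A} {i : A →ₗ[F] V} (h : ∀ v, i (a v) = x (i v))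
    {K : Submodule F V} (hK : Inv x K) : Inv a (K.comap i) := fun v hv => by
  rw [Submodule.mem_comap, h]
  exact hK _ hv

theorem sub_map {x : End F V} {a : End F A} {i : A →ₗ[F] V} (hi : Function.Injective i)
    (h : ∀ v, i (a v) = x (i v)) {K : Submodule F A} (hK : Inv a K) : sub x (K.map i) = sub a K := by
  rw [sub_of_inv hK]
  exact sub_eq (i ∘ₗ K.subtype) (hi.comp K.injective_subtype)
    (by rw [LinearMap.range_comp, Submodule.range_subtype]) fun v => h v

theorem quo_comap {x : End F V} {b : End F B} {p : V →ₗ[F] B} (hp : Function.Surjective p)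
    (h : ∀ v, p (x v) = b (p v)) {M : Submodule F B} (hM : Inv b M) : quo x (M.comap p) = quo b M := by
  rw [quo_of_inv hM]
  refine quo_eq (M.mkQ ∘ₗ p) (M.mkQ_surjective.comp hp) (by rw [LinearMap.ker_comp, Submodule.ker_mkQ])
    fun v => ?_
  exact congrArg M.mkQ (h v)

variable [Finite F]

theorem finite_space (V : Type u) [AddCommGroup V] [Module F V] [FiniteDimensional F V] : Finite V :=
  Module.finite_of_finite F

open Classical in
/-- the finite set of invariant subspaces -/
noncomputable def inv (x : End F V) : Finset (Submodule F V) :=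
  haveI := finite_space (F := F) V
  haveI : Finite (Submodule F V) := Finite.of_injective _ SetLike.coe_injective
  (Set.toFinite {W | Inv x W}).toFinset

theorem mem_inv {x : End F V} {W : Submodule F V} : W ∈ inv x ↔ Inv x W := by simp [inv]

open Classical in
theorem sum_inv_sub {x : End F V} {a : End F A} {i : A →ₗ[F] V} (hi : Function.Injective i)
    (h : ∀ v, i (a v) = x (i v)) (G : Submodule F V → ℂ) :
    ∑ K ∈ inv a, G (K.map i) = ∑ W ∈ (inv x).filter (· ≤ LinearMap.range i), G W := by
  refine Finset.sum_nbij' (fun K => K.map i) (fun W => W.comap i) ?_ ?_ ?_ ?_ fun _ _ => rfl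
  · intro K hK
    exact Finset.mem_filter.2 ⟨mem_inv.2 ((mem_inv.1 hK).map h), LinearMap.map_le_range⟩
  · intro W hW
    exact mem_inv.2 ((mem_inv.1 (Finset.mem_filter.1 hW).1).comap h)
  · intro K _
    exact Submodule.comap_map_eq_of_injective hi K
  · intro W hW
    exact Submodule.map_comap_eq_self (Finset.mem_filter.1 hW).2

open Classical in
theorem sum_inv_quo {x : End F V} {b : End F B} {p : V →ₗ[F] B} (hp : Function.Surjective p)
    (h : ∀ v, p (x v) = b (p v)) (G : Submodule F V → ℂ) :
    ∑ M ∈ inv b, G (M.comap p) = ∑ W ∈ (inv x).filter (LinearMap.ker p ≤ ·), G W := by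
  refine Finset.sum_nbij' (fun M => M.comap p) (fun W => W.map p) ?_ ?_ ?_ ?_ fun _ _ => rfl
  · intro K hK
    exact Finset.mem_filter.2 ⟨mem_inv.2 ((mem_inv.1 hK).comap h), LinearMap.ker_le_comap _⟩
  · intro W hW
    exact mem_inv.2 ((mem_inv.1 (Finset.mem_filter.1 hW).1).map h)
  · intro K _
    exact Submodule.map_comap_eq_of_surjective hp K
  · intro W hW
    exact Submodule.comap_map_eq_self (Finset.mem_filter.1 hW).2

/-- class functions -/
structure CF (F : Type u) [Field F] : Type (u + 1) where
  f : Cls F → ℂ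

instance instCoeFunCF : CoeFun (CF F) fun _ => Cls F → ℂ := ⟨CF.f⟩

/-- class functions are functions on classes -/
def cfEquiv (F : Type u) [Field F] : CF F ≃ (Cls F → ℂ) := ⟨CF.f, CF.mk, fun _ => rfl, fun _ => rfl⟩

noncomputable instance instAddCommGroupCF : AddCommGroup (CF F) := (cfEquiv F).addCommGroup
noncomputable instance instModuleCF : Module ℂ (CF F) := (cfEquiv F).module ℂ

theorem cf_ext {φ ψ : CF F}
    (h : ∀ (V : Type u) [AddCommGroup V] [Module F V] [FiniteDimensional F V] (x : End F V),
      φ (cl x) = ψ (cl x)) : φ = ψ := (cfEquiv F).injective (funext (cls_ind h))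

theorem add_apply (φ ψ : CF F) (c : Cls F) : (φ + ψ) c = φ c + ψ c := rfl
theorem sub_apply (φ ψ : CF F) (c : Cls F) : (φ - ψ) c = φ c - ψ c := rfl
theorem neg_apply (φ : CF F) (c : Cls F) : (-φ) c = -φ c := rfl
theorem zero_apply (c : Cls F) : (0 : CF F) c = 0 := rfl
theorem smul_apply (a : ℂ) (φ : CF F) (c : Cls F) : (a • φ) c = a * φ c := rfl
theorem sum_apply {ι : Type*} (s : Finset ι) (φ : ι → CF F) (c : Cls F) :
    (∑ i ∈ s, φ i) c = ∑ i ∈ s, φ i c :=
  map_sum (⟨⟨fun φ : CF F => φ c, rfl⟩, fun _ _ => rfl⟩ : CF F →+ ℂ) φ s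

theorem sum_inv_congr {x : End F V} {a : End F A} (h : Sim a x) (G : Cls F → Cls F → ℂ) :
    ∑ W ∈ inv a, G (sub a W) (quo a W) = ∑ W ∈ inv x, G (sub x W) (quo x W) := by
  classical
  obtain ⟨e, he⟩ := sim_iff.1 h
  have := sum_inv_sub (i := (e : A →ₗ[F] V)) e.injective he fun W => G (sub x W) (quo x W)
  rw [Finset.filter_true_of_mem fun W _ => by simp] at this
  rw [← this]
  refine Finset.sum_congr rfl fun K hK => ?_
  have hK := mem_inv.1 hK
  rw [sub_map e.injective he hK, ← quo_comap (p := (e : A →ₗ[F] V)) e.surjective he (hK.map he),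
    Submodule.comap_map_eq_of_injective e.injective]

/-- the Hall product -/
noncomputable def hmul (φ ψ : CF F) : CF F :=
  ⟨Quotient.lift (fun A : Obj F => ∑ W ∈ inv A.x, φ (sub A.x W) * ψ (quo A.x W))
    fun _ _ h => sum_inv_congr h fun c d => φ c * ψ d⟩

/-- the dimension of a class -/
noncomputable def dim : Cls F → ℕ :=
  Quotient.lift (fun A : Obj F => finrank F A.V) fun _ _ h => (sim_iff.1 h).choose.finrank_eq

omit [Finite F] in
theorem dim_cl (x : End F V) : dim (cl x) = finrank F V := rfl

omit [Finite F] in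
theorem dim_sub {x : End F V} {W : Submodule F V} (h : Inv x W) : dim (sub x W) = finrank F W := by
  rw [sub_of_inv h, dim_cl]

omit [Finite F] in
theorem dim_quo {x : End F V} {W : Submodule F V} (h : Inv x W) :
    dim (quo x W) + finrank F W = finrank F V := by
  rw [quo_of_inv h, dim_cl, Submodule.finrank_quotient_add_finrank]

/-- the unit -/
noncomputable def hone : CF F := ⟨fun c => if dim c = 0 then 1 else 0⟩

omit [Finite F] in
theorem hone_apply (c : Cls F) : (hone : CF F) c = if dim c = 0 then 1 else 0 := rfl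

theorem hmul_cl (φ ψ : CF F) (x : End F V) :
    hmul φ ψ (cl x) = ∑ W ∈ inv x, φ (sub x W) * ψ (quo x W) := rfl

theorem hmul_comm (φ ψ : CF F) : hmul φ ψ = hmul ψ φ := by
  refine cf_ext fun V _ _ _ x => ?_
  conv_rhs => rw [← cl_dualMap]
  rw [hmul_cl, hmul_cl]
  refine Finset.sum_nbij' (fun W => W.dualAnnihilator) (fun W => W.dualCoannihilator) ?_ ?_ ?_ ?_ ?_
  · intro W hW
    refine mem_inv.2 fun f hf => ?_
    rw [Submodule.mem_dualAnnihilator] at hf ⊢
    exact fun w hw => hf _ (mem_inv.1 hW w hw)
  · intro W hW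
    refine mem_inv.2 fun v hv => ?_
    rw [Submodule.mem_dualCoannihilator] at hv ⊢
    exact fun f hf => hv _ (mem_inv.1 hW f hf)
  · intro W _
    exact Subspace.dualAnnihilator_dualCoannihilator_eq
  · intro W _
    exact Subspace.dualCoannihilator_dualAnnihilator_eq
  · intro W hW
    have hW := mem_inv.1 hW
    rw [mul_comm, sub_of_inv hW, quo_of_inv hW, ← cl_dualMap (x.restrict hW),
      ← cl_dualMap (W.mapQ W x hW)]
    rw [sub_eq (a := (W.mapQ W x hW).dualMap) W.mkQ.dualMap
        (LinearMap.dualMap_injective_of_surjective W.mkQ_surjective) W.range_dualMap_mkQ_eq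
        fun f => by ext v; rfl,
      quo_eq (b := (x.restrict hW).dualMap) W.subtype.dualMap
        (LinearMap.dualMap_surjective_of_injective W.injective_subtype)
        (by rw [LinearMap.ker_dualMap_eq_dualAnnihilator_range, Submodule.range_subtype])
        fun f => by ext v; rfl]

theorem hone_hmul (φ : CF F) : hmul hone φ = φ := by
  refine cf_ext fun V _ _ _ x => ?_
  rw [hmul_cl, Finset.sum_eq_single ⊥]
  · have h : Inv x ⊥ := fun v hv => by rw [Submodule.mem_bot] at hv ⊢; rw [hv, map_zero]
    rw [hone_apply, dim_sub h, finrank_bot, if_pos rfl, one_mul,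
      quo_eq (b := x) LinearMap.id Function.surjective_id LinearMap.ker_id fun _ => rfl]
  · intro W hW h0
    rw [hone_apply, dim_sub (mem_inv.1 hW), if_neg (by rwa [Submodule.finrank_eq_zero]), zero_mul]
  · intro h
    exact absurd (mem_inv.2 fun v hv => by rw [Submodule.mem_bot] at hv ⊢; rw [hv, map_zero]) h

theorem hmul_assoc (φ ψ χ : CF F) : hmul (hmul φ ψ) χ = hmul φ (hmul ψ χ) := by
  classical
  refine cf_ext fun V _ _ _ x => ?_
  let sq : Submodule F V → Submodule F V → Cls F := fun K N =>
    if h : Inv x K then sub (K.mapQ K x h) (N.map K.mkQ) else cl x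
  have h1 : hmul (hmul φ ψ) χ (cl x) =
      ∑ N ∈ inv x, ∑ K ∈ (inv x).filter (· ≤ N), φ (sub x K) * ψ (sq K N) * χ (quo x N) := by
    rw [hmul_cl]
    refine Finset.sum_congr rfl fun N hN => ?_
    have hN := mem_inv.1 hN
    rw [sub_of_inv hN, hmul_cl, ← Finset.sum_mul]
    congr 1
    have := sum_inv_sub (x := x) (a := x.restrict hN) N.injective_subtype (fun _ => rfl)
      fun K => φ (sub x K) * ψ (sq K N)
    rw [Submodule.range_subtype] at this
    rw [← this]
    refine Finset.sum_congr rfl fun K hK => ?_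
    have hK := mem_inv.1 hK
    have hK' : Inv x (K.map N.subtype) := hK.map (i := N.subtype) fun _ => rfl
    rw [sub_map (x := x) N.injective_subtype (fun _ => rfl) hK]
    congr 2
    simp only [sq, dif_pos hK']
    have hN' : Inv ((K.map N.subtype).mapQ _ x hK') (N.map (K.map N.subtype).mkQ) :=
      hN.map (i := (K.map N.subtype).mkQ) fun _ => rfl
    rw [sub_of_inv hN']
    refine quo_eq (((K.map N.subtype).mkQ ∘ₗ N.subtype).codRestrict _ fun v =>
      Submodule.mem_map_of_mem v.2) ?_ ?_ fun v => rfl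
    · rintro ⟨_, v, hv, rfl⟩
      exact ⟨⟨v, hv⟩, rfl⟩
    · rw [LinearMap.ker_codRestrict, LinearMap.ker_comp, Submodule.ker_mkQ,
        Submodule.comap_map_eq_of_injective N.injective_subtype]
  have h2 : hmul φ (hmul ψ χ) (cl x) =
      ∑ K ∈ inv x, ∑ N ∈ (inv x).filter (K ≤ ·), φ (sub x K) * ψ (sq K N) * χ (quo x N) := by
    rw [hmul_cl]
    refine Finset.sum_congr rfl fun K hK => ?_
    have hK := mem_inv.1 hK
    rw [quo_of_inv hK, hmul_cl]
    simp only [mul_assoc, ← Finset.mul_sum]
    congr 1
    have := sum_inv_quo (x := x) (b := K.mapQ K x hK) K.mkQ_surjective (fun _ => rfl)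
      fun N => ψ (sq K N) * χ (quo x N)
    rw [Submodule.ker_mkQ] at this
    rw [← this]
    refine Finset.sum_congr rfl fun M hM => ?_
    rw [quo_comap (x := x) K.mkQ_surjective (fun _ => rfl) (mem_inv.1 hM)]
    simp only [sq, dif_pos hK, Submodule.map_comap_eq_of_surjective K.mkQ_surjective]
  rw [h1, h2]
  simp only [Finset.sum_filter]
  exact Finset.sum_comm

noncomputable instance instCommRingCF : CommRing (CF F) where
  __ := instAddCommGroupCF
  mul := hmul
  one := hone
  mul_assoc := hmul_assoc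
  mul_comm := hmul_comm
  one_mul := hone_hmul
  mul_one φ := (hmul_comm _ _).trans (hone_hmul φ)
  left_distrib φ ψ χ := cf_ext fun V _ _ _ x => by
    change hmul φ (ψ + χ) (cl x) = hmul φ ψ (cl x) + hmul φ χ (cl x)
    simp only [hmul_cl, add_apply, mul_add, Finset.sum_add_distrib]
  right_distrib φ ψ χ := cf_ext fun V _ _ _ x => by
    change hmul (φ + ψ) χ (cl x) = hmul φ χ (cl x) + hmul ψ χ (cl x)
    simp only [hmul_cl, add_apply, add_mul, Finset.sum_add_distrib]
  zero_mul φ := cf_ext fun V _ _ _ x => by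
    change hmul 0 φ (cl x) = 0
    simp only [hmul_cl, zero_apply, zero_mul, Finset.sum_const_zero]
  mul_zero φ := cf_ext fun V _ _ _ x => by
    change hmul φ 0 (cl x) = 0
    simp only [hmul_cl, zero_apply, mul_zero, Finset.sum_const_zero]

theorem mul_cl (φ ψ : CF F) (x : End F V) :
    (φ * ψ) (cl x) = ∑ W ∈ inv x, φ (sub x W) * ψ (quo x W) := rfl

theorem one_apply (c : Cls F) : (1 : CF F) c = if dim c = 0 then 1 else 0 := rfl

theorem smul_mul (a : ℂ) (φ ψ : CF F) : a • φ * ψ = a • (φ * ψ) := cf_ext fun V _ _ _ x => by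
  simp only [mul_cl, smul_apply, Finset.mul_sum, mul_assoc]

theorem mul_smul' (a : ℂ) (φ ψ : CF F) : φ * a • ψ = a • (φ * ψ) := by
  rw [mul_comm, smul_mul, mul_comm]

end Cfsg.Agent.Hall
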