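import Cfsg.Agent.Hall.Deriv
/-!
# Block triangular endomorphisms, constant terms, homogeneity and degrees
-/
set_option autoImplicit false
set_option linter.unusedSectionVars false

namespace Cfsg.Agent.Hall
open Module Cfsg.Agent.GLn

universe u

variable {F : Type u} [Field F]
variable {V : Type u} [AddCommGroup V] [Module F V] [FiniteDimensional F V]
  {A : Type u} [AddCommGroup A] [Module F A] [FiniteDimensional F A]
  {B : Type u} [AddCommGroup B] [Module F B] [FiniteDimensional F B]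

/-- invertible classes -/
def Unit : Cls F → Prop :=
  Quotient.lift (fun A : Obj F => Function.Injective A.x) fun A B h => by
    obtain ⟨e, he⟩ := sim_iff.1 h
    have : e ∘ A.x = B.x ∘ e := funext he
    rw [← e.injective.of_comp_iff, this, Function.Injective.of_comp_iff' _ e.bijective]

theorem unit_cl {x : End F V} : Unit (cl x) ↔ Function.Injective x := Iff.rfl

theorem unit_cl_iff {x : End F V} : Unit (cl x) ↔ IsUnit x := by
  rw [unit_cl, End.isUnit_iff]
  exact ⟨fun h => ⟨h, LinearMap.injective_iff_surjective.1 h⟩, fun h => h.1⟩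

theorem unit_iff_sub_quo {x : End F V} {W : Submodule F V} (hW : Inv x W) :
    Unit (cl x) ↔ Unit (sub x W) ∧ Unit (quo x W) := by
  rw [sub_of_inv hW, quo_of_inv hW, unit_cl, unit_cl, unit_cl]
  constructor
  · intro h
    refine ⟨fun v w e => Subtype.ext (h (congrArg Subtype.val e)), ?_⟩
    rw [LinearMap.injective_iff_surjective] at h ⊢
    intro v
    obtain ⟨v, rfl⟩ := W.mkQ_surjective v
    obtain ⟨v, rfl⟩ := h v
    exact ⟨W.mkQ v, rfl⟩
  · rintro ⟨h1, h2⟩
    rw [injective_iff_map_eq_zero] at h1 h2 ⊢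
    intro v hv
    have h3 : v ∈ W := (Submodule.Quotient.mk_eq_zero W).1 (h2 _ (by
      change W.mkQ (x v) = 0
      rw [hv, map_zero]))
    exact congrArg Subtype.val (h1 ⟨v, h3⟩ (Subtype.ext hv))

/-- block triangular endomorphisms -/
def blk (y : End F A) (b : B →ₗ[F] A) (z : End F B) : End F (A × B) :=
  (y.coprod b).prod (z ∘ₗ LinearMap.snd F A B)

omit [FiniteDimensional F A] [FiniteDimensional F B] in
theorem blk_apply (y : End F A) (b : B →ₗ[F] A) (z : End F B) (v : A × B) :
    blk y b z v = (y v.1 + b v.2, z v.2) := rfl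

theorem sub_blk (y : End F A) (b : B →ₗ[F] A) (z : End F B) :
    sub (blk y b z) (LinearMap.range (LinearMap.inl F A B)) = cl y :=
  sub_eq _ LinearMap.inl_injective rfl fun v => by simp [blk_apply]

theorem quo_blk (y : End F A) (b : B →ₗ[F] A) (z : End F B) :
    quo (blk y b z) (LinearMap.range (LinearMap.inl F A B)) = cl z :=
  quo_eq _ LinearMap.snd_surjective (LinearMap.range_inl F A B).symm fun _ => rfl

theorem inv_blk (y : End F A) (b : B →ₗ[F] A) (z : End F B) :
    Inv (blk y b z) (LinearMap.range (LinearMap.inl F A B)) :=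
  inv_range (a := y) fun v => by simp [blk_apply]

theorem unit_blk {y : End F A} {b : B →ₗ[F] A} {z : End F B} :
    Unit (cl (blk y b z)) ↔ Unit (cl y) ∧ Unit (cl z) := by
  rw [unit_iff_sub_quo (inv_blk y b z), sub_blk, quo_blk]

theorem unit_ext {y : End F A} {b : A} : Unit (cl (ext y b)) ↔ Unit (cl y) :=
  (unit_blk (y := y) (b := LinearMap.toSpanSingleton F A b) (z := LinearMap.id)).trans
    (and_iff_left Function.injective_id)

/-- the zero space -/
def cl0 (F : Type u) [Field F] : Cls F := cl (1 : End F (Fin 0 → F))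

theorem dim_cl0 : dim (cl0 F) = 0 := by simp [cl0, dim_cl]

theorem unit_cl0 : Unit (cl0 F) := Function.injective_id

theorem eq_cl0 {c : Cls F} (h : dim c = 0) : c = cl0 F := by
  induction c using cls_ind with
  | h V x =>
    have : Subsingleton V := finrank_zero_iff.1 h
    exact cl_eq (LinearEquiv.ofFinrankEq _ _ (by simpa [dim_cl] using h)) fun _ => Subsingleton.elim _ _

variable [Finite F]

/-- homogeneous class functions supported on invertible elements -/
def Hom (n : ℕ) (φ : CF F) : Prop := ∀ c, φ c ≠ 0 → dim c = n ∧ Unit c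

theorem hom_zero (n : ℕ) : Hom n (0 : CF F) := fun _ h => absurd rfl h

theorem hom_one : Hom 0 (1 : CF F) := fun c h => by
  have h0 : dim c = 0 := by
    by_contra h0
    exact h (by rw [one_apply, if_neg h0])
  exact ⟨h0, eq_cl0 h0 ▸ unit_cl0⟩

theorem Hom.add {n : ℕ} {φ χ : CF F} (h : Hom n φ) (h' : Hom n χ) : Hom n (φ + χ) := fun c hc => by
  by_cases e : φ c = 0
  · exact h' c fun e' => hc (by rw [add_apply, e, e', add_zero])
  · exact h c e

theorem Hom.smul {n : ℕ} {φ : CF F} (h : Hom n φ) (a : ℂ) : Hom n (a • φ) := fun c hc =>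
  h c (right_ne_zero_of_mul hc)

theorem hom_sum {ι : Type*} {n : ℕ} (s : Finset ι) {φ : ι → CF F} (h : ∀ i ∈ s, Hom n (φ i)) :
    Hom n (∑ i ∈ s, φ i) := Finset.sum_induction _ _ (fun _ _ => Hom.add) (hom_zero n) h

theorem Hom.mul {a b : ℕ} {φ χ : CF F} (h : Hom a φ) (h' : Hom b χ) : Hom (a + b) (φ * χ) := by
  refine cls_ind fun V _ _ _ x hx => ?_
  rw [mul_cl] at hx
  obtain ⟨W, hW, h0⟩ := Finset.exists_ne_zero_of_sum_ne_zero hx
  have hW := mem_inv.1 hW
  obtain ⟨h1, h2⟩ := h _ (left_ne_zero_of_mul h0)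
  obtain ⟨h3, h4⟩ := h' _ (right_ne_zero_of_mul h0)
  refine ⟨?_, (unit_iff_sub_quo hW).2 ⟨h2, h4⟩⟩
  rw [dim_cl, ← dim_quo hW, ← dim_sub hW, h1, h3, add_comm]

theorem mul_cl0 (φ χ : CF F) : (φ * χ) (cl0 F) = φ (cl0 F) * χ (cl0 F) := by
  have h : Inv (1 : End F (Fin 0 → F)) ⊥ := fun _ h => h
  rw [cl0, mul_cl, Finset.sum_eq_single ⊥ (fun W _ h => absurd (Subsingleton.elim _ _) h)
    fun h' => absurd (mem_inv.2 h) h', eq_cl0 (c := sub _ _) (by rw [dim_sub h, finrank_bot]),
    eq_cl0 (c := quo _ _) (by simpa using dim_quo h)]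
  rfl

theorem Hom.eq_smul_one {φ : CF F} (h : Hom 0 φ) : φ = φ (cl0 F) • (1 : CF F) := by
  refine cf_ext fun V _ _ _ x => ?_
  rw [smul_apply, one_apply]
  split_ifs with h0
  · rw [eq_cl0 h0, mul_one]
  · by_contra h1
    rw [mul_zero] at h1
    exact h0 (h _ h1).1

variable {ψ : AddChar F ℂ}

theorem der_pow_ne_zero {n : ℕ} {φ : CF F} (h : Hom n φ) (k : ℕ) (t : TCls F)
    (ht : (der ψ ^ k) (res φ) t ≠ 0) : dim (forget t) + k = n ∧ Unit (forget t) := by
  induction k generalizing t with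
  | zero => exact h _ ht
  | succ k ih =>
    induction t using tcls_ind with
    | h V y μ hy =>
      rw [pow_succ', End.mul_apply, der_tcl] at ht
      obtain ⟨b, hb⟩ := exists_of_av_ne_zero ht
      obtain ⟨h1, h2⟩ := ih _ (left_ne_zero_of_mul hb)
      rw [ecl, forget_tcl] at h1 h2
      rw [dim_cl, finrank_prod, finrank_self] at h1
      exact ⟨by rw [forget_tcl, dim_cl]; omega, unit_ext.1 h2⟩

theorem dk_ne_zero {n : ℕ} {φ : CF F} (h : Hom n φ) (k : ℕ) {c : Cls F} (hc : dk ψ k φ c ≠ 0) :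
    dim c + k = n ∧ Unit c := by
  induction c using cls_ind with
  | h V x => exact der_pow_ne_zero h k _ hc

theorem Hom.dk {a k : ℕ} {φ : CF F} (h : Hom (a + k) φ) : Hom a (dk ψ k φ) := fun _ hc =>
  ⟨Nat.add_right_cancel (dk_ne_zero h k hc).1, (dk_ne_zero h k hc).2⟩

theorem Hom.dk_eq_zero {n k : ℕ} {φ : CF F} (h : Hom n φ) (hk : n < k) : Hall.dk ψ k φ = 0 :=
  cf_ext fun V _ _ _ x => by
    by_contra hc
    have := (dk_ne_zero h k hc).1
    omega

variable (ψ) in
/-- the multiplicity of the Gelfand-Graev character -/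
noncomputable def del (k : ℕ) : CF F →ₗ[ℂ] ℂ where
  toFun φ := dk ψ k φ (cl0 F)
  map_add' _ _ := by rw [map_add, add_apply]
  map_smul' _ _ := by rw [map_smul, smul_apply]; rfl

theorem del_apply (k : ℕ) (φ : CF F) : del ψ k φ = dk ψ k φ (cl0 F) := rfl

theorem del_one : del ψ 0 (1 : CF F) = 1 := by rw [del_apply, dk_zero, one_apply, if_pos dim_cl0]

theorem del_mul (hψ : ψ ≠ 1) {a b : ℕ} {φ χ : CF F} (h : Hom a φ) :
    del ψ (a + b) (φ * χ) = del ψ a φ * del ψ b χ := by
  rw [del_apply, dk_mul hψ, sum_apply, Finset.sum_eq_single a, mul_cl0, Nat.add_sub_cancel_left]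
  · rfl
  · intro i _ hi
    rw [mul_cl0]
    refine mul_eq_zero_of_left ?_ _
    by_contra hc
    have := (dk_ne_zero h i hc).1
    rw [dim_cl0, zero_add] at this
    exact hi this
  · intro h
    exact absurd (Finset.mem_range.2 (by omega)) h

omit [Finite F] [FiniteDimensional F A] [FiniteDimensional F B] in
theorem fix_blk (y : End F A) (b : B →ₗ[F] A) {z : End F B} {l : B →ₗ[F] F} (h : ∀ v, l (z v) = l v)
    (v : A × B) : (l ∘ₗ LinearMap.snd F A B) (blk y b z v) = (l ∘ₗ LinearMap.snd F A B) v := h v.2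

/-- the constant term for triples -/
noncomputable def ct (y : End F A) : End ℂ (TF F) where
  toFun α := Quotient.lift (fun Z : TObj F => av fun b : Z.V →ₗ[F] A =>
      α (tcl (blk y b Z.x) (Z.l ∘ₗ LinearMap.snd F A Z.V) (fix_blk y b Z.h)))
    fun Z Z' ⟨e, h1, h2⟩ => av_equiv (e.arrowCongr (LinearEquiv.refl F A)).toEquiv fun b =>
      congrArg α (tcl_eq ((LinearEquiv.refl F A).prodCongr e) (fun v => by simp [blk_apply, h1])
        fun v => h2 v.2)
  map_add' α β := funext (tcls_ind fun V _ _ _ x l h => by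
    have := finite_space (F := F) (V →ₗ[F] A)
    exact av_add _ _)
  map_smul' c α := funext (tcls_ind fun V _ _ _ x l h => by
    have := finite_space (F := F) (V →ₗ[F] A)
    exact (mul_av _ _).symm)

theorem ct_tcl (y : End F A) (α : TF F) (z : End F B) (l : B →ₗ[F] F) (h : ∀ v, l (z v) = l v) :
    ct y α (tcl z l h) = av fun b : B →ₗ[F] A =>
      α (tcl (blk y b z) (l ∘ₗ LinearMap.snd F A B) (fix_blk y b h)) := rfl

/-- the constant term -/
noncomputable def cc (y : End F A) : CF F →ₗ[ℂ] CF F := zp ∘ₗ ct y ∘ₗ res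

theorem cc_cl (y : End F A) (φ : CF F) (z : End F B) :
    cc y φ (cl z) = av fun b : B →ₗ[F] A => φ (cl (blk y b z)) := rfl

theorem ct_res (y : End F A) (φ : CF F) : ct y (res φ) = res (cc y φ) :=
  funext (tcls_ind fun _ _ _ _ _ _ _ => rfl)

theorem zp_ct (y : End F A) (α : TF F) : zp (ct y α) = cc y (zp α) :=
  cf_ext fun _ _ _ _ _ => rfl

theorem der_ct (y : End F A) : der ψ * ct y = ct y * der ψ := by
  refine LinearMap.ext fun α => funext (tcls_ind fun V _ _ _ z μ h => ?_)
  have := finite_space (F := F) V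
  have := finite_space (F := F) A
  have := finite_space (F := F) (V →ₗ[F] A)
  have := finite_space (F := F) (V × F →ₗ[F] A)
  rw [End.mul_apply, End.mul_apply, der_tcl, ct_tcl]
  simp only [der_tcl, av_prod]
  rw [← av_prod fun p : (V →ₗ[F] A) × A => av fun j => α (ecl (blk y p.1 z) (p.2, j)) *
    ψ ((μ ∘ₗ LinearMap.snd F A V) (p.2, j)), av_comm]
  refine av_congr fun c => ?_
  rw [ecl, ct_tcl, av_mul]
  symm
  refine av_equiv (((Equiv.refl _).prodCongr (LinearMap.ringLmapEquivSelf F F A).symm.toEquiv).trans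
    (LinearMap.coprodEquiv F).toEquiv) fun p => ?_
  congr 1
  refine congrArg α (tcl_eq (LinearEquiv.prodAssoc F A V F) (fun v => ?_) fun _ => rfl)
  simp [blk_apply, ext_apply, add_assoc]

theorem dk_cc (y : End F A) (k : ℕ) (φ : CF F) : dk ψ k (cc y φ) = cc y (dk ψ k φ) := by
  rw [dk_apply, dk_apply, ← ct_res, ← zp_ct, ← End.mul_apply, ← End.mul_apply,
    (Commute.pow_left (der_ct y) k).eq]

theorem cc_cl0 (y : End F A) (φ : CF F) : cc y φ (cl0 F) = φ (cl y) := by
  have := finite_space (F := F) ((Fin 0 → F) →ₗ[F] A)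
  rw [cl0, cc_cl, ← av_const (ι := (Fin 0 → F) →ₗ[F] A) (φ (cl y))]
  refine av_congr fun b => congrArg φ (cl_eq (LinearEquiv.prodUnique) fun v => ?_)
  change y v.1 + b v.2 = y v.1
  rw [Subsingleton.elim v.2 0, map_zero, add_zero]

theorem del_cc (y : End F A) (k : ℕ) (φ : CF F) : del ψ k (cc y φ) = dk ψ k φ (cl y) := by
  rw [del_apply, dk_cc, cc_cl0]

theorem Hom.cc {a k : ℕ} {φ : CF F} (h : Hom (a + k) φ) (hA : finrank F A = a) (y : End F A) :
    Hom k (cc y φ) := by
  refine cls_ind fun V _ _ _ z hz => ?_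
  rw [cc_cl] at hz
  obtain ⟨b, hb⟩ := exists_of_av_ne_zero hz
  obtain ⟨h1, h2⟩ := h _ hb
  rw [dim_cl, finrank_prod, hA] at h1
  exact ⟨Nat.add_left_cancel h1, (unit_blk.1 h2).2⟩

theorem cc_congr {y : End F A} {y' : End F V} (h : cl y = cl y') : cc y = cc y' := by
  obtain ⟨e, he⟩ := sim_iff.1 (cl_eq_iff.1 h)
  refine LinearMap.ext fun φ => cf_ext fun Z _ _ _ z => ?_
  rw [cc_cl, cc_cl]
  exact av_equiv ((LinearEquiv.refl F Z).arrowCongr e).toEquiv fun b =>
    congrArg φ (cl_eq (e.prodCongr (LinearEquiv.refl F Z)) fun v => by simp [blk_apply, he])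

/-- the identity of the mirabolic group -/
def pcl (F : Type u) [Field F] (m : ℕ) : TCls F := ecl (1 : End F (Fin m → F)) 0

omit [Finite F] in
theorem tcl_one_eq {m : ℕ} (hV : finrank F V = m + 1) {l : V →ₗ[F] F} (hl : l ≠ 0)
    (h : ∀ v, l ((1 : End F V) v) = l v) : tcl 1 l h = pcl F m := by
  obtain ⟨v0, hv0⟩ := LinearMap.surjective (f := l) hl 1
  have h1 : finrank F (Fin m → F) = finrank F (LinearMap.ker l) := by
    have := l.finrank_range_add_finrank_ker
    rw [LinearMap.range_eq_top.2 (LinearMap.surjective (f := l) hl), finrank_top, finrank_self] at this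
    rw [finrank_fin_fun]
    omega
  let f := LinearEquiv.ofFinrankEq _ _ h1
  let e : (Fin m → F) × F →ₗ[F] V :=
    ((LinearMap.ker l).subtype ∘ₗ f.toLinearMap).coprod (LinearMap.toSpanSingleton F V v0)
  have h2 : ∀ v, l (e v) = v.2 := fun v => by
    simp [e, hv0, LinearMap.mem_ker.1 (f v.1).2]
  have h3 : Function.Injective e := by
    rw [injective_iff_map_eq_zero]
    intro v hv
    have h4 : v.2 = 0 := by rw [← h2, hv, map_zero]
    simp only [e, LinearMap.coprod_apply, h4, map_zero, add_zero] at hv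
    exact Prod.ext (by simpa using hv) h4
  symm
  exact tcl_eq (LinearMap.linearEquivOfInjective e h3 (by simp [hV]))
    (fun v => by simp [ext_apply]) h2

theorem ecl_one (hψ : ψ ≠ 1) [Fintype (Dual F V)] (α : TF F) :
    α (ecl (1 : End F V) 0) = ∑ μ : Dual F V, der ψ α (tcl 1 μ fun _ => rfl) := by
  have := finite_space (F := F) V
  have := Fintype.ofFinite V
  simp only [der_tcl, ← av_sum, ← Finset.mul_sum]
  have h0 : (Nat.card V : ℂ) ≠ 0 := Nat.cast_ne_zero.2 Nat.card_pos.ne'
  have h1 : Nat.card (Dual F V) = Nat.card V := by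
    rw [Module.natCard_eq_pow_finrank (K := F), Module.natCard_eq_pow_finrank (K := F) (V := V),
      Subspace.dual_finrank_eq]
  rw [av_eq, Finset.sum_eq_single 0]
  · simp only [map_zero, AddChar.map_zero_eq_one, Finset.sum_const, Finset.card_univ,
      ← Nat.card_eq_fintype_card, h1, nsmul_eq_mul]
    field_simp
  · intro b _ hb
    have := av_vanish hψ (μ := Dual.eval F V b) (W := ⊤) (g := fun _ => 1) (fun h => hb (by
      rw [← forall_dual_apply_eq_zero_iff F]
      exact fun f => h (Submodule.mem_top (x := f)))) fun _ _ _ => rfl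
    rw [av_eq, h1, mul_eq_zero, or_iff_right (inv_ne_zero h0)] at this
    simp only [one_mul, Dual.eval_apply] at this
    rw [this, mul_zero]
  · simp

theorem degree_aux (hψ : ψ ≠ 1) (m : ℕ) (α : TF F)
    (h : ∀ i, 0 < i → i ≤ m → zp ((der ψ ^ i) α) = 0) :
    α (pcl F m) = (∏ i ∈ Finset.Ico 1 (m + 1), ((Nat.card F : ℂ) ^ i - 1)) *
      zp ((der ψ ^ (m + 1)) α) (cl0 F) := by
  classical
  induction m generalizing α with
  | zero =>
    have : Unique (Dual F (Fin 0 → F)) := ⟨⟨0⟩, fun _ => Subsingleton.elim _ _⟩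
    rw [pcl, ecl_one hψ α, Fintype.sum_unique, tcl_zero (Subsingleton.elim _ _)]
    simp [zp_apply, cl0]
  | succ m ih =>
    have := finite_space (F := F) (Dual F (Fin (m + 1) → F))
    have := Fintype.ofFinite (Dual F (Fin (m + 1) → F))
    have h1 := congrArg (fun φ : CF F => φ (cl (1 : End F (Fin (m + 1) → F)))) (h 1 one_pos (by omega))
    simp only [pow_one, zp_apply, zcl_cl, zero_apply] at h1
    rw [pcl, ecl_one hψ α, ← Finset.add_sum_erase _ _ (Finset.mem_univ 0), h1, zero_add,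
      Finset.sum_congr rfl fun μ hμ => congrArg (der ψ α)
        (tcl_one_eq (finrank_fin_fun F) (Finset.ne_of_mem_erase hμ) _),
      Finset.sum_const, Finset.card_erase_of_mem (Finset.mem_univ _), Finset.card_univ,
      ← Nat.card_eq_fintype_card, Module.natCard_eq_pow_finrank (K := F), Subspace.dual_finrank_eq,
      finrank_fin_fun, ih (der ψ α) fun i h1 h2 => by
        rw [← End.mul_apply, ← pow_succ]; exact h _ (by omega) (by omega),
      ← End.mul_apply, ← pow_succ, Finset.prod_Ico_succ_top (by omega : 1 ≤ m + 1), nsmul_eq_mul,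
      Nat.cast_sub (Nat.one_le_pow _ _ Nat.card_pos)]
    push_cast
    ring

theorem degree_eq (hψ : ψ ≠ 1) {n : ℕ} (hn : 0 < n) (hV : finrank F V = n) {φ : CF F}
    (h : ∀ i, 0 < i → i < n → dk ψ i φ = 0) :
    φ (cl (1 : End F V)) = (∏ i ∈ Finset.Ico 1 n, ((Nat.card F : ℂ) ^ i - 1)) * del ψ n φ := by
  obtain ⟨m, rfl⟩ : ∃ m, n = m + 1 := ⟨n - 1, by omega⟩
  rw [del_apply, dk_apply, ← degree_aux hψ m _ fun i h1 h2 => h i h1 (by omega), pcl, ecl, res_tcl]
  exact congrArg φ (cl_eq (LinearEquiv.ofFinrankEq _ _ (by simp [hV])) fun v => by simp [ext_apply])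

end Cfsg.Agent.Hall
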