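import Cfsg.Agent.Hall.Block
import Cfsg.Agent.CharLib.ClassFun
/-!
# The Hall product is parabolic induction
-/
set_option autoImplicit false
set_option linter.unusedSectionVars false

namespace Cfsg.Agent.Hall
open Module Cfsg Cfsg.Agent.GLn Cfsg.Agent.CharLib
open scoped ComplexConjugate MatrixGroups

universe u

variable {F : Type u} [Field F]
variable {V : Type u} [AddCommGroup V] [Module F V] [FiniteDimensional F V]
  {A : Type u} [AddCommGroup A] [Module F A] [FiniteDimensional F A]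
  {B : Type u} [AddCommGroup B] [Module F B] [FiniteDimensional F B]

/-- the class of an invertible matrix -/
noncomputable def gcl {n : ℕ} (g : GL (Fin n) F) : Cls F := cl (Matrix.toLin' (g : Matrix (Fin n) (Fin n) F))

/-- the function on invertible matrices -/
noncomputable def mat (n : ℕ) (φ : CF F) : GL (Fin n) F → ℂ := fun g => φ (gcl g)

variable (V) in
/-- the function on the automorphisms of a space -/
def on (φ : CF F) : (End F V)ˣ → ℂ := fun g => φ (cl g.1)

theorem exists_mulEquiv {n : ℕ} (hV : finrank F V = n) :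
    ∃ e : (End F V)ˣ ≃* GL (Fin n) F, ∀ g, gcl (e g) = cl g.1 := by
  let b := finBasisOfFinrankEq F V hV
  refine ⟨Units.mapEquiv (LinearMap.toMatrixAlgEquiv b).toMulEquiv, fun g => ?_⟩
  symm
  refine cl_eq b.equivFun fun v => ?_
  exact (LinearMap.toMatrix_mulVec_repr b b g.1 v).symm

theorem gcl_eq_iff {n : ℕ} {g h : GL (Fin n) F} : gcl g = gcl h ↔ IsConj g h := by
  rw [gl_isConj_iff, isConj_iff_sim, gcl, gcl, cl_eq_iff]

theorem dim_gcl {n : ℕ} (g : GL (Fin n) F) : dim (gcl g) = n := by simp [gcl, dim_cl]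

theorem unit_gcl {n : ℕ} (g : GL (Fin n) F) : Unit (gcl g) :=
  unit_cl_iff.2 (g.isUnit.map Matrix.toLinAlgEquiv')

theorem exists_gcl {n : ℕ} {c : Cls F} (h : dim c = n) (h' : Unit c) : ∃ g : GL (Fin n) F, gcl g = c := by
  induction c using cls_ind with
  | h V x =>
    obtain ⟨e, he⟩ := exists_mulEquiv (F := F) (V := V) h
    obtain ⟨g, rfl⟩ := unit_cl_iff.1 h'
    exact ⟨e g, he g⟩

theorem mat_classFun (n : ℕ) (φ : CF F) : IsClassFunction _ (mat n φ) := fun _ h =>
  congrArg φ (gcl_eq_iff.2 (isConj_iff.2 ⟨h, rfl⟩).symm)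

open Classical in
/-- the class function defined by a function on invertible matrices -/
noncomputable def ofG {n : ℕ} (χ : GL (Fin n) F → ℂ) : CF F :=
  ⟨fun c => if h : ∃ g : GL (Fin n) F, gcl g = c then χ h.choose else 0⟩

theorem mat_ofG {n : ℕ} {χ : GL (Fin n) F → ℂ} (h : IsClassFunction _ χ) : mat n (ofG χ) = χ := by
  funext g
  have h1 : ∃ g' : GL (Fin n) F, gcl g' = gcl g := ⟨g, rfl⟩
  exact (dif_pos h1).trans (classFun_of_isConj h (gcl_eq_iff.1 h1.choose_spec))

variable [Finite F]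

theorem hom_ofG {n : ℕ} (χ : GL (Fin n) F → ℂ) : Hom n (ofG χ) := fun c hc => by
  by_cases h : ∃ g : GL (Fin n) F, gcl g = c
  · obtain ⟨g, rfl⟩ := h
    exact ⟨dim_gcl g, unit_gcl g⟩
  · exact absurd (dif_neg h) hc

theorem hom_ext {n : ℕ} {φ χ : CF F} (h : Hom n φ) (h' : Hom n χ) (e : mat n φ = mat n χ) : φ = χ := by
  refine cf_ext fun V _ _ _ x => ?_
  by_cases hx : dim (cl x) = n ∧ Unit (cl x)
  · obtain ⟨g, hg⟩ := exists_gcl hx.1 hx.2
    rw [← hg]
    exact congrFun e g
  · rw [not_not.1 (mt (h _) hx), not_not.1 (mt (h' _) hx)]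

omit [Finite F] in
theorem on_classFun (φ : CF F) : IsClassFunction _ (on V φ) := fun g h =>
  congrArg φ (cl_eq (LinearMap.GeneralLinearGroup.toLinearEquiv h⁻¹) fun v => by
    change ((h⁻¹).1 * (h * g * h⁻¹).1) v = (g.1 * (h⁻¹).1) v
    rw [← Units.val_mul, ← Units.val_mul, mul_assoc h, inv_mul_cancel_left])

/-- the inner product in degree `n` -/
noncomputable def inn (n : ℕ) (φ χ : CF F) : ℂ := av fun g : GL (Fin n) F => φ (gcl g) * conj (χ (gcl g))

theorem inn_eq (n : ℕ) [Fintype (GL (Fin n) F)] (φ χ : CF F) :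
    inn n φ χ = classInner (mat n φ) (mat n χ) := av_eq _

theorem inn_eq_on {n : ℕ} (hV : finrank F V = n) [Fintype (End F V)ˣ] (φ χ : CF F) :
    inn n φ χ = classInner (on V φ) (on V χ) := by
  obtain ⟨e, he⟩ := exists_mulEquiv (F := F) (V := V) hV
  rw [inn, ← av_equiv e.toEquiv (f := fun g => φ (cl g.1) * conj (χ (cl g.1))) fun g => by
    rw [← he]; rfl, av_eq]
  rfl

theorem inn_conj (n : ℕ) (φ χ : CF F) : conj (inn n φ χ) = inn n χ φ := by
  rw [inn, inn, av_conj]
  exact av_congr fun g => by simp [mul_comm]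

/-- the inner product as a linear map in the first variable -/
noncomputable def innL (n : ℕ) (χ : CF F) : CF F →ₗ[ℂ] ℂ where
  toFun φ := inn n φ χ
  map_add' _ _ := (av_congr fun _ => add_mul _ _ _).trans (av_add _ _)
  map_smul' _ _ := (av_congr fun _ => mul_assoc _ _ _).trans (mul_av _ _).symm

theorem innL_apply (n : ℕ) (χ φ : CF F) : innL n χ φ = inn n φ χ := rfl

/-- characters -/
def IsCh (n : ℕ) (φ : CF F) : Prop := Hom n φ ∧ IsCharacter _ (mat n φ)

/-- irreducible characters -/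
def IsIr (n : ℕ) (φ : CF F) : Prop := Hom n φ ∧ IsIrrCharacter _ (mat n φ)

theorem IsIr.isCh {n : ℕ} {φ : CF F} (h : IsIr n φ) : IsCh n φ := ⟨h.1, isChar_of_irr h.2⟩

theorem isChar_on_iff {n : ℕ} (hV : finrank F V = n) {φ : CF F} :
    IsCharacter _ (on V φ) ↔ IsCharacter _ (mat n φ) := by
  obtain ⟨e, he⟩ := exists_mulEquiv (F := F) (V := V) hV
  constructor
  · intro h
    convert isChar_comp e.symm.toMonoidHom h using 1
    funext g
    obtain ⟨g, rfl⟩ := e.surjective g
    simp [mat, on, he]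
  · intro h
    convert isChar_comp e.toMonoidHom h using 1
    funext g
    simp [mat, on, he]

/-- irreducible characters of `GL_n` as class functions -/
noncomputable def irEquiv (F : Type u) [Field F] [Finite F] (n : ℕ) :
    IrrCharacter (GL (Fin n) F) ≃ {φ : CF F // IsIr n φ} where
  toFun χ := ⟨ofG χ.1, hom_ofG _, by rw [mat_ofG (isChar_classFun (isChar_of_irr χ.2))]; exact χ.2⟩
  invFun φ := ⟨mat n φ.1, φ.2.2⟩
  left_inv χ := Subtype.ext (mat_ofG (isChar_classFun (isChar_of_irr χ.2)))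
  right_inv φ := Subtype.ext (hom_ext (hom_ofG _) φ.2.1 (mat_ofG (mat_classFun _ _)))

instance instFiniteIr (n : ℕ) : Finite {φ : CF F // IsIr n φ} := Finite.of_equiv _ (irEquiv F n)

noncomputable instance instFintypeIr (n : ℕ) : Fintype {φ : CF F // IsIr n φ} := Fintype.ofFinite _

theorem Hom.eq_sum {n : ℕ} {φ : CF F} (h : Hom n φ) :
    φ = ∑ π : {π : CF F // IsIr n π}, inn n φ π.1 • π.1 := by
  have := Fintype.ofFinite (GL (Fin n) F)
  refine hom_ext h (hom_sum _ fun π _ => π.2.1.smul _) ?_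
  rw [classFun_eq_sum_inner (mat_classFun n φ), ← (irEquiv F n).symm.sum_comp]
  funext g
  simp only [mat, sum_apply, Finset.sum_apply, smul_apply, inn_eq]
  rfl

theorem Hom.exists_inn_ne_zero {n : ℕ} {φ : CF F} (h : Hom n φ) (f : CF F →ₗ[ℂ] ℂ) (h0 : f φ ≠ 0) :
    ∃ π, IsIr n π ∧ inn n φ π ≠ 0 ∧ f π ≠ 0 := by
  rw [h.eq_sum, map_sum] at h0
  obtain ⟨π, -, hπ⟩ := Finset.exists_ne_zero_of_sum_ne_zero h0
  rw [map_smul, smul_eq_mul] at hπ
  exact ⟨π.1, π.2, left_ne_zero_of_mul hπ, right_ne_zero_of_mul hπ⟩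

theorem Hom.eq_zero {n : ℕ} {φ : CF F} (h : Hom n φ) (h0 : ∀ π, IsIr n π → inn n φ π = 0) : φ = 0 := by
  rw [h.eq_sum]
  exact Finset.sum_eq_zero fun π _ => by rw [h0 _ π.2, zero_smul]

theorem inn_nat {n : ℕ} {φ χ : CF F} (h : IsCh n φ) (h' : IsCh n χ) : ∃ m : ℕ, inn n φ χ = m := by
  have := Fintype.ofFinite (GL (Fin n) F)
  rw [inn_eq]
  exact inner_char_nat h.2 h'.2

theorem inn_comm {n : ℕ} {φ χ : CF F} (h : IsCh n φ) (h' : IsCh n χ) : inn n φ χ = inn n χ φ := by
  obtain ⟨m, hm⟩ := inn_nat h h'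
  rw [← inn_conj n φ χ, hm, map_natCast]

theorem IsIr.inn_self {n : ℕ} {φ : CF F} (h : IsIr n φ) : inn n φ φ = 1 := by
  have := Fintype.ofFinite (GL (Fin n) F)
  rw [inn_eq]
  exact inner_irr_self h.2

theorem IsIr.eq_of_inn {n : ℕ} {φ χ : CF F} (h : IsIr n φ) (h' : IsIr n χ) (h0 : inn n φ χ ≠ 0) :
    φ = χ := by
  have := Fintype.ofFinite (GL (Fin n) F)
  rw [inn_eq] at h0
  exact hom_ext h.1 h'.1 (eq_of_inner_ne_zero h.2 h'.2 h0)

theorem IsIr.one_ne_zero {n : ℕ} {φ : CF F} (h : IsIr n φ) : φ (gcl (1 : GL (Fin n) F)) ≠ 0 :=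
  isIrr_one_ne_zero h.2

theorem IsIr.deg_eq {n m : ℕ} {φ : CF F} (h : IsIr n φ) (h' : Hom m φ) : n = m :=
  (dim_gcl _).symm.trans (h' _ h.one_ne_zero).1

theorem isCh_zero (n : ℕ) : IsCh n (0 : CF F) := ⟨hom_zero n, isChar_zero⟩

theorem IsCh.add {n : ℕ} {φ χ : CF F} (h : IsCh n φ) (h' : IsCh n χ) : IsCh n (φ + χ) :=
  ⟨h.1.add h'.1, isChar_add h.2 h'.2⟩

theorem isIr_one : IsIr 0 (1 : CF F) := ⟨hom_one, by
  convert isIrr_one (G := GL (Fin 0) F) using 1
  funext g
  rw [mat, one_apply, if_pos (dim_gcl g)]⟩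

theorem IsCh.sub {n : ℕ} {φ π : CF F} (h : IsCh n φ) (h' : IsIr n π) (h0 : inn n φ π ≠ 0) :
    IsCh n (φ - π) := by
  have := Fintype.ofFinite (GL (Fin n) F)
  rw [inn_eq] at h0
  refine ⟨?_, isChar_sub_of_inner_ne_zero h.2 h'.2 h0⟩
  rw [sub_eq_add_neg, ← neg_one_smul ℂ π]
  exact h.1.add (h'.1.smul _)

theorem isCh_of_inn {n : ℕ} {φ : CF F} (h : Hom n φ) (h' : ∀ π, IsIr n π → ∃ m : ℕ, inn n φ π = m) :
    IsCh n φ := by
  have := Fintype.ofFinite (GL (Fin n) F)
  refine ⟨h, isChar_of_inner_nat (mat_classFun n φ) fun χ hχ => ?_⟩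
  obtain ⟨m, hm⟩ := h' _ (irEquiv F n ⟨χ, hχ⟩).2
  rw [inn_eq] at hm
  exact ⟨m, by rw [← hm]; exact congrArg _ (mat_ofG (isChar_classFun (isChar_of_irr hχ))).symm⟩

/-- the stabiliser of a subspace -/
def par (W : Submodule F V) : Subgroup (End F V)ˣ where
  carrier := {g | Inv g.1 W}
  one_mem' := fun _ h => h
  mul_mem' := fun hg hh v hv => hg _ (hh v hv)
  inv_mem' := fun {g} hg v hv => by
    have h1 : Function.Injective (g.1.restrict hg) := fun a b e =>
      Subtype.ext (((End.isUnit_iff _).1 g.isUnit).1 (congrArg Subtype.val e))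
    obtain ⟨w, hw⟩ := LinearMap.injective_iff_surjective.1 h1 ⟨v, hv⟩
    have h2 : v = g.1 w := (congrArg Subtype.val hw).symm
    rw [h2, ← End.mul_apply, Units.inv_mul]
    exact w.2

omit [Finite F] in
theorem mem_par {W : Submodule F V} {g : (End F V)ˣ} : g ∈ par W ↔ Inv g.1 W := Iff.rfl

/-- restriction to the subspace -/
def parSub (W : Submodule F V) : par W →* (End F W)ˣ :=
  MonoidHom.toHomUnits
    { toFun := fun g => g.1.1.restrict g.2
      map_one' := rfl
      map_mul' := fun _ _ => rfl }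

/-- action on the quotient -/
def parQuo (W : Submodule F V) : par W →* (End F (V ⧸ W))ˣ :=
  MonoidHom.toHomUnits
    { toFun := fun g => W.mapQ W g.1.1 g.2
      map_one' := Submodule.mapQ_id W
      map_mul' := fun g h => Submodule.mapQ_comp W W W h.1.1 g.1.1 h.2 g.2 }

omit [Finite F] in
theorem card_fiber_par {W W' : Submodule F V} (h : finrank F W = finrank F W') :
    Nat.card {g : (End F V)ˣ // W.map g.1 = W'} = Nat.card (par W) := by
  obtain ⟨e, he⟩ := Submodule.exists_linearEquiv_restrict_eq (LinearEquiv.ofFinrankEq _ _ h)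
  let g0 : (End F V)ˣ := LinearMap.GeneralLinearGroup.ofLinearEquiv e
  have h0 : W.map g0.1 = W' := by
    refine Submodule.eq_of_le_of_finrank_eq ?_ ((e.finrank_map_eq W).trans h)
    rintro _ ⟨v, hv, rfl⟩
    exact (he ⟨v, hv⟩ ▸ Subtype.property _ : e v ∈ W')
  symm
  refine Nat.card_congr ((Equiv.mulLeft g0).subtypeEquiv fun g => ?_)
  rw [Equiv.coe_mulLeft, Units.val_mul, End.mul_eq_comp, Submodule.map_comp, ← h0,
    (Submodule.map_injective_of_injective (f := g0.1) e.injective).eq_iff]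
  constructor
  · intro hg
    refine Submodule.eq_of_le_of_finrank_eq (Submodule.map_le_iff_le_comap.2 hg)
      ((LinearMap.GeneralLinearGroup.toLinearEquiv g).finrank_map_eq W)
  · intro hg
    exact Submodule.map_le_iff_le_comap.1 hg.le

theorem on_mul [Fintype (End F V)ˣ] {a : ℕ} {ρ : CF F} (hρ : ∀ c, ρ c ≠ 0 → dim c = a) (π : CF F)
    {W : Submodule F V} (hW : finrank F W = a) :
    on V (ρ * π) = indFun (par W) fun p => ρ (sub p.1.1 W) * π (quo p.1.1 W) := by
  classical
  funext g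
  have := finite_space (F := F) V
  have : Finite (Submodule F V) := Finite.of_injective _ SetLike.coe_injective
  have := Fintype.ofFinite (Submodule F V)
  let G : Submodule F V → ℂ := fun K => if Inv g.1 K then ρ (sub g.1 K) * π (quo g.1 K) else 0
  have h1 : ∀ h : (End F V)ˣ, extendByZero (par W) (fun p => ρ (sub p.1.1 W) * π (quo p.1.1 W))
      (h⁻¹ * g * h) = G (W.map h.1) := by
    intro h
    let e := LinearMap.GeneralLinearGroup.toLinearEquiv h
    have he : ∀ v, e ((h⁻¹ * g * h).1 v) = g.1 (e v) := fun v => by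
      change (h.1 * (h⁻¹ * g * h).1) v = (g.1 * h.1) v
      rw [← Units.val_mul, ← Units.val_mul, ← mul_assoc, mul_inv_cancel_left]
    by_cases hg : h⁻¹ * g * h ∈ par W
    · rw [extendByZero_of_mem _ _ hg]
      refine ((if_pos (Inv.map (i := h.1) he hg)).trans ?_).symm
      rw [sub_map (i := h.1) e.injective he hg]
      exact congrArg (fun c => _ * π c) (quo_map_equiv e he hg)
    · rw [extendByZero_of_not_mem _ _ hg]
      refine (if_neg fun h2 => hg ?_).symm
      have := Inv.comap (i := h.1) he h2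
      rwa [Submodule.comap_map_eq_of_injective (f := h.1) e.injective] at this
  have h0 : (Nat.card (par W) : ℂ) ≠ 0 := card_ne_zero
  rw [indFun, Finset.sum_congr rfl fun h _ => h1 h,
    ← Finset.sum_fiberwise_of_maps_to (t := Finset.univ) (g := fun h : (End F V)ˣ => W.map h.1)
      fun _ _ => Finset.mem_univ _, on, mul_cl, Finset.mul_sum,
    Finset.sum_congr rfl (g := G) fun K hK => (if_pos (mem_inv.1 hK)).symm,
    Finset.sum_subset (Finset.subset_univ _) fun K _ hK => if_neg (mt mem_inv.2 hK)]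
  refine Finset.sum_congr rfl fun K _ => ?_
  rw [Finset.sum_congr rfl (g := fun _ => G K) fun h hh => by rw [(Finset.mem_filter.1 hh).2],
    Finset.sum_const, nsmul_eq_mul]
  change G K = _
  by_cases hK : G K = 0
  · rw [hK, mul_zero, mul_zero]
  · have h2 : Inv g.1 K := by
      by_contra h2
      exact hK (if_neg h2)
    have h3 := hρ _ (left_ne_zero_of_mul ((if_pos h2).symm.trans_ne hK))
    rw [dim_sub h2] at h3
    rw [← Fintype.card_subtype, ← Nat.card_eq_fintype_card, card_fiber_par (hW.trans h3.symm),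
      inv_mul_cancel_left₀ h0]

theorem IsCh.mul {a b : ℕ} {ρ π : CF F} (h : IsCh a ρ) (h' : IsCh b π) : IsCh (a + b) (ρ * π) := by
  refine ⟨h.1.mul h'.1, ?_⟩
  let V := (Fin a → F) × (Fin b → F)
  have := finite_space (F := F) (End F V)
  have := Fintype.ofFinite (End F V)ˣ
  let W : Submodule F V := LinearMap.range (LinearMap.inl F _ _)
  have hV : finrank F V = a + b := by simp [V]
  have hW : finrank F W = a := by
    rw [LinearMap.finrank_range_of_inj LinearMap.inl_injective, finrank_fin_fun]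
  have hQ : finrank F (V ⧸ W) = b := by
    have := W.finrank_quotient_add_finrank
    omega
  rw [← isChar_on_iff hV, on_mul (fun c hc => (h.1 c hc).1) π hW]
  refine isChar_indFun _ ?_
  convert isChar_mul (isChar_comp (parSub W) ((isChar_on_iff hW).2 h.2))
    (isChar_comp (parQuo W) ((isChar_on_iff hQ).2 h'.2)) using 1
  funext p
  rw [sub_of_inv p.2, quo_of_inv p.2]
  rfl

omit [Finite F] [FiniteDimensional F A] [FiniteDimensional F B] in
theorem eq_blk {x : End F (A × B)} (h : Inv x (LinearMap.range (LinearMap.inl F A B))) :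
    x = blk (LinearMap.fst F A B ∘ₗ x ∘ₗ LinearMap.inl F A B)
      (LinearMap.fst F A B ∘ₗ x ∘ₗ LinearMap.inr F A B) (LinearMap.snd F A B ∘ₗ x ∘ₗ LinearMap.inr F A B) := by
  refine LinearMap.ext fun v => ?_
  have h1 : (x (v.1, 0)).2 = 0 := by
    have := h (v.1, 0) ⟨v.1, rfl⟩
    rwa [LinearMap.range_inl] at this
  have h2 : x v = x (v.1, 0) + x (0, v.2) := by rw [← map_add]; simp
  rw [h2]
  exact Prod.ext rfl (by simp [blk_apply, h1])

omit [Finite F] in
theorem av_par (f : End F (A × B) → ℂ) :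
    (av fun p : par (LinearMap.range (LinearMap.inl F A B)) => f p.1.1) =
      av fun t : (End F A)ˣ × (End F B)ˣ × (B →ₗ[F] A) => f (blk t.1.1 t.2.2 t.2.1.1) := by
  symm
  have h1 : ∀ t : (End F A)ˣ × (End F B)ˣ × (B →ₗ[F] A), IsUnit (blk t.1.1 t.2.2 t.2.1.1) := fun t =>
    unit_cl_iff.1 (unit_blk.2 ⟨unit_cl_iff.2 t.1.isUnit, unit_cl_iff.2 t.2.1.isUnit⟩)
  refine av_equiv (Equiv.ofBijective (fun t => ⟨(h1 t).unit, inv_blk _ _ _⟩) ⟨?_, ?_⟩) fun _ => rfl
  · rintro ⟨y, z, b⟩ ⟨y', z', b'⟩ e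
    have e : blk y.1 b z.1 = blk y'.1 b' z'.1 := congrArg (fun p => p.1.1) e
    refine Prod.ext (Units.ext (LinearMap.ext fun v => ?_))
      (Prod.ext (Units.ext (LinearMap.ext fun v => ?_)) (LinearMap.ext fun v => ?_))
    · simpa [blk_apply] using LinearMap.congr_fun e (v, 0)
    · exact congrArg Prod.snd (LinearMap.congr_fun e (0, v))
    · simpa [blk_apply] using congrArg Prod.fst (LinearMap.congr_fun e (0, v))
  · intro p
    have h2 := eq_blk p.2
    have h3 := unit_cl_iff.2 p.1.isUnit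
    rw [h2, unit_blk, unit_cl_iff, unit_cl_iff] at h3
    exact ⟨(h3.1.unit, h3.2.unit, _), Subtype.ext (Units.ext h2.symm)⟩

/-- the adjoint of multiplication -/
noncomputable def adj (a : ℕ) (ρ : CF F) : CF F →ₗ[ℂ] CF F :=
  haveI := Fintype.ofFinite (GL (Fin a) F)
  (Nat.card (GL (Fin a) F) : ℂ)⁻¹ • ∑ y : GL (Fin a) F,
    conj (ρ (gcl y)) • cc (Matrix.toLin' (y : Matrix (Fin a) (Fin a) F))

theorem map_adj (f : CF F →ₗ[ℂ] ℂ) (a : ℕ) (ρ π : CF F) : f (adj a ρ π) =
    av fun y : GL (Fin a) F => f (cc (Matrix.toLin' (y : Matrix (Fin a) (Fin a) F)) π) * conj (ρ (gcl y)) := by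
  let _ := Fintype.ofFinite (GL (Fin a) F)
  simp only [adj, LinearMap.smul_apply, LinearMap.sum_apply, map_smul, map_sum, smul_eq_mul, av_eq,
    mul_comm (conj _)]

theorem Hom.adj {a k : ℕ} {π : CF F} (h : Hom (a + k) π) (ρ : CF F) : Hom k (adj a ρ π) := by
  simp only [Hall.adj, LinearMap.smul_apply, LinearMap.sum_apply]
  exact (hom_sum _ fun y _ => (h.cc (finrank_fin_fun F) _).smul _).smul _

theorem inn_adj {a k : ℕ} {ρ : CF F} (hρ : Hom a ρ) (π π' : CF F) :
    inn k (adj a ρ π) π' = inn (a + k) π (ρ * π') := by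
  let A := Fin a → F
  let B := Fin k → F
  have := finite_space (F := F) (End F (A × B))
  have := finite_space (F := F) (End F A)
  have := finite_space (F := F) (End F B)
  have := finite_space (F := F) (B →ₗ[F] A)
  have := Fintype.ofFinite (End F (A × B))ˣ
  have := Fintype.ofFinite (End F B)ˣ
  let W : Submodule F (A × B) := LinearMap.range (LinearMap.inl F _ _)
  have := Fintype.ofFinite (par W)
  have hV : finrank F (A × B) = a + k := by simp [A, B]
  have hW : finrank F W = a := by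
    rw [LinearMap.finrank_range_of_inj LinearMap.inl_injective, finrank_fin_fun]
  rw [inn_eq_on hV, on_mul (fun c hc => (hρ c hc).1) π' hW, 
    inner_indFun_right _ _ (on_classFun π), classInner, ← av_eq]
  refine Eq.trans ?_ (av_par fun x => π (cl x) * conj (ρ (sub x W) * π' (quo x W))).symm
  rw [← innL_apply, map_adj, av_prod]
  obtain ⟨e, he⟩ := exists_mulEquiv (F := F) (V := A) (finrank_fin_fun F)
  symm
  refine av_equiv e.toEquiv fun y => ?_
  have h1 : gcl (e.toEquiv y) = cl y.1 := he y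
  rw [cc_congr h1, h1, innL_apply, inn_eq_on (V := B) (finrank_fin_fun F), classInner, ← av_eq, av_prod,
    av_mul]
  refine av_congr fun z => ?_
  simp only [on, cc_cl, av_mul, W, sub_blk, quo_blk, map_mul]
  exact av_congr fun b => by ring

theorem del_adj {ψ : AddChar F ℂ} (a k : ℕ) (ρ π : CF F) :
    del ψ k (adj a ρ π) = inn a (dk ψ k π) ρ := by
  rw [map_adj]
  simp only [del_cc]
  rfl

theorem IsCh.adj {a k : ℕ} {ρ π : CF F} (hρ : IsCh a ρ) (h : IsCh (a + k) π) : IsCh k (adj a ρ π) :=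
  isCh_of_inn (h.1.adj ρ) fun π' h' => by
    rw [inn_adj hρ.1]
    exact inn_nat h (hρ.mul h'.isCh)

end Cfsg.Agent.Hall
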