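import Cfsg.Agent.GLn.SemisimpleCount
/-!
# Counting multisets of given degree; irreducible polynomials
-/
set_option autoImplicit false

namespace Cfsg.Agent.Hall
open Polynomial

theorem multiset_eq_of_proper {α : Type*} {d : α → ℕ} (hd : ∀ a, 0 < d a) {A B : Multiset α}
    (h : (A.map d).sum = (B.map d).sum) (hA : 2 ≤ A.card)
    (h1 : ∀ I, I < A → I ≤ B) (h2 : ∀ I, I < B → I ≤ A) : A = B := by
  classical
  have key : ∀ {A B : Multiset α}, (A.map d).sum = (B.map d).sum → (∀ I, I < A → I ≤ B) → A ≠ B →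
      ∃ x, A = Multiset.replicate A.card x := by
    intro A B h h1 hne
    have h3 : ¬ A ≤ B := fun hle => by
      obtain ⟨C, rfl⟩ := Multiset.le_iff_exists_add.1 hle
      rw [Multiset.map_add, Multiset.sum_add, left_eq_add, Multiset.sum_eq_zero_iff] at h
      refine hne ?_
      rw [Multiset.eq_zero_of_forall_notMem (s := C) fun a ha =>
        (hd a).ne' (h _ (Multiset.mem_map_of_mem _ ha)), add_zero]
    rw [Multiset.le_iff_count, not_forall] at h3
    obtain ⟨x, hx⟩ := h3
    have h4 : Multiset.replicate (A.count x) x = A := by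
      by_contra h4
      exact hx (Multiset.le_count_iff_replicate_le.2
        (h1 _ (lt_of_le_of_ne (Multiset.le_count_iff_replicate_le.1 le_rfl) h4)))
    exact ⟨x, Multiset.eq_replicate_card.2 fun b hb => Multiset.eq_of_mem_replicate (h4 ▸ hb)⟩
  by_contra hne
  obtain ⟨x, hx⟩ := key h h1 hne
  obtain ⟨y, hy⟩ := key h.symm h2 (Ne.symm hne)
  have h3 : ({x} : Multiset α) < A := lt_of_le_of_ne (Multiset.singleton_le.2 (by
    rw [hx]; exact Multiset.mem_replicate.2 ⟨by omega, rfl⟩)) fun e => by
      rw [← e] at hA; simp at hA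
  have h4 : x = y := Multiset.eq_of_mem_replicate (hy ▸ Multiset.singleton_le.1 (h1 _ h3))
  subst h4
  rw [hx, hy, Multiset.map_replicate, Multiset.map_replicate, Multiset.sum_replicate,
    Multiset.sum_replicate, smul_eq_mul, smul_eq_mul] at h
  exact hne (by rw [hx, hy, Nat.eq_of_mul_eq_mul_right (hd x) h])

theorem card_multiset_split {α : Type*} {d : α → ℕ} (hd : ∀ a, 0 < d a) {n : ℕ}
    [Finite {A : Multiset α // (A.map d).sum = n}] :
    Finite {a // d a = n} ∧ Nat.card {A : Multiset α // (A.map d).sum = n} =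
      Nat.card {A : Multiset {a // d a < n} // (A.map fun a => d a.1).sum = n} + Nat.card {a // d a = n} := by
  let Φ : {A : Multiset {a // d a < n} // (A.map fun a => d a.1).sum = n} ⊕ {a // d a = n} →
      {A : Multiset α // (A.map d).sum = n} :=
    Sum.elim (fun A => ⟨A.1.map Subtype.val, by rw [Multiset.map_map]; exact A.2⟩)
      fun a => ⟨{a.1}, by simpa using a.2⟩
  have h1 : ∀ A a, Φ (Sum.inl A) ≠ Φ (Sum.inr a) := fun A a e => by
    have : a.1 ∈ A.1.map Subtype.val := by
      rw [show A.1.map Subtype.val = {a.1} from congrArg Subtype.val e]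
      exact Multiset.mem_singleton_self _
    obtain ⟨b, -, hb⟩ := Multiset.mem_map.1 this
    exact b.2.ne (hb ▸ a.2)
  have h2 : Function.Injective Φ := by
    rintro (A | a) (B | b) e
    · exact congrArg _ (Subtype.ext (Multiset.map_injective Subtype.val_injective (congrArg Subtype.val e)))
    · exact absurd e (h1 _ _)
    · exact absurd e.symm (h1 _ _)
    · exact congrArg _ (Subtype.ext (Multiset.singleton_inj.1 (congrArg Subtype.val e)))
  have h3 : Function.Surjective Φ := by
    rintro ⟨A, hA⟩
    by_cases h : ∀ a ∈ A, d a < n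
    · lift A to Multiset {a // d a < n} using h
      exact ⟨Sum.inl ⟨A, by rwa [Multiset.map_map] at hA⟩, rfl⟩
    · push Not at h
      obtain ⟨a, ha, h⟩ := h
      obtain ⟨B, rfl⟩ := Multiset.exists_cons_of_mem ha
      have h4 := hA
      rw [Multiset.map_cons, Multiset.sum_cons] at h4
      have h5 : B = 0 := Multiset.eq_zero_of_forall_notMem fun b hb => (hd b).ne'
        (Multiset.sum_eq_zero_iff.1 (by omega) _ (Multiset.mem_map_of_mem _ hb))
      exact ⟨Sum.inr ⟨a, by omega⟩, Subtype.ext (by subst h5; rfl)⟩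
  have := Finite.of_injective _ (h2.comp Sum.inl_injective)
  have := Finite.of_injective _ (h2.comp Sum.inr_injective)
  exact ⟨this, by rw [← Nat.card_eq_of_bijective Φ ⟨h2, h3⟩, Nat.card_sum]⟩

theorem card_eq_of_multiset {α β : Type*} {d : α → ℕ} {d' : β → ℕ} (hd : ∀ a, 0 < d a)
    (hd' : ∀ a, 0 < d' a) (h : ∀ n, 0 < n → Nat.card {A : Multiset α // (A.map d).sum = n} =
      Nat.card {A : Multiset β // (A.map d').sum = n})
    (hf : ∀ n, Finite {A : Multiset α // (A.map d).sum = n})
    (hf' : ∀ n, Finite {A : Multiset β // (A.map d').sum = n}) (n : ℕ) :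
    Nat.card {a // d a = n} = Nat.card {a // d' a = n} := by
  induction n using Nat.strong_induction_on with
  | _ n ih =>
  rcases Nat.eq_zero_or_pos n with rfl | hn
  · have : IsEmpty {a // d a = 0} := ⟨fun a => (hd _).ne' a.2⟩
    have : IsEmpty {a // d' a = 0} := ⟨fun a => (hd' _).ne' a.2⟩
    simp
  have e : ∀ c, Nonempty ({a : {a // d a < n} // d a.1 = c} ≃ {a : {a // d' a < n} // d' a.1 = c}) := by
    intro c
    by_cases hc : c < n
    · have := (card_multiset_split (n := c) hd).1
      have := (card_multiset_split (n := c) hd').1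
      exact ⟨(Equiv.subtypeSubtypeEquivSubtype fun {_} h => h ▸ hc).trans
        ((Finite.card_eq.1 (ih c hc)).some.trans
          (Equiv.subtypeSubtypeEquivSubtype fun {_} h => h ▸ hc).symm)⟩
    · have : IsEmpty {a : {a // d a < n} // d a.1 = c} := ⟨fun a => hc (a.2 ▸ a.1.2)⟩
      have : IsEmpty {a : {a // d' a < n} // d' a.1 = c} := ⟨fun a => hc (a.2 ▸ a.1.2)⟩
      exact ⟨Equiv.equivOfIsEmpty _ _⟩
  let f := Equiv.ofFiberEquiv fun c => (e c).some
  have hf1 : ∀ a, d' (f a).1 = d a.1 := Equiv.ofFiberEquiv_map fun c => (e c).some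
  have h1 := h n hn
  rw [(card_multiset_split hd).2, (card_multiset_split hd').2,
    Nat.card_congr ((⟨Multiset.map f, Multiset.map f.symm, fun _ => by simp, fun _ => by simp⟩ :
      _ ≃ _).subtypeEquiv (q := fun A => (A.map fun a => d' a.1).sum = n) fun A => by simp [hf1])] at h1
  exact Nat.add_left_cancel h1

variable {F : Type*} [Field F]

/-- monic irreducible polynomials other than the variable -/
abbrev Irr0 (F : Type*) [Field F] := {f : F[X] // f.Monic ∧ Irreducible f ∧ f.coeff 0 ≠ 0}

theorem card_multiset_irr0 (n : ℕ) :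
    Nonempty ({A : Multiset (Irr0 F) // (A.map fun f => f.1.natDegree).sum = n} ≃
      {f : F[X] // f.Monic ∧ f.natDegree = n ∧ f.coeff 0 ≠ 0}) := by
  classical
  have h1 : ∀ A : Multiset (Irr0 F), ∀ f ∈ A.map Subtype.val, f.Monic ∧ Irreducible f ∧ f.coeff 0 ≠ 0 :=
    fun A f hf => by
      obtain ⟨g, -, rfl⟩ := Multiset.mem_map.1 hf
      exact g.2
  have h2 : ∀ A : Multiset (Irr0 F), (A.map Subtype.val).prod.natDegree =
      (A.map fun f => f.1.natDegree).sum := fun A => by
    rw [natDegree_multiset_prod_of_monic _ fun f hf => (h1 A f hf).1, Multiset.map_map]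
    rfl
  have h3 : ∀ A : Multiset (Irr0 F),
      UniqueFactorizationMonoid.normalizedFactors (A.map Subtype.val).prod = A.map Subtype.val := fun A => by
    rw [UniqueFactorizationMonoid.normalizedFactors_prod_eq _ fun f hf => (h1 A f hf).2.1,
      Multiset.map_congr rfl fun f hf => (h1 A f hf).1.normalize_eq_self, Multiset.map_id']
  refine ⟨Equiv.ofBijective (fun A => ⟨(A.1.map Subtype.val).prod,
    monic_multiset_prod_of_monic _ _ fun f _ => f.2.1, (h2 _).trans A.2, ?_⟩) ⟨fun A B e => ?_, ?_⟩⟩
  · rw [coeff_zero_multiset_prod]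
    refine Multiset.prod_ne_zero fun h => ?_
    obtain ⟨f, hf, h⟩ := Multiset.mem_map.1 h
    exact (h1 _ f hf).2.2 h
  · refine Subtype.ext (Multiset.map_injective Subtype.val_injective ?_)
    exact (h3 _).symm.trans
      ((congrArg (fun f => UniqueFactorizationMonoid.normalizedFactors f.1) e).trans (h3 _))
  · rintro ⟨f, h4, h5, h6⟩
    have h7 := UniqueFactorizationMonoid.prod_normalizedFactors_eq h4.ne_zero
    rw [h4.normalize_eq_self] at h7
    have h8 : ∀ g ∈ UniqueFactorizationMonoid.normalizedFactors f,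
        g.Monic ∧ Irreducible g ∧ g.coeff 0 ≠ 0 := fun g hg => by
      obtain ⟨h1, h2, k, rfl⟩ := (Polynomial.mem_normalizedFactors_iff h4.ne_zero).1 hg
      exact ⟨h2, h1, left_ne_zero_of_mul (by rwa [mul_coeff_zero] at h6)⟩
    generalize UniqueFactorizationMonoid.normalizedFactors f = A at h7 h8
    lift A to Multiset (Irr0 F) using h8
    exact ⟨⟨A, by rw [← h2, h7, h5]⟩, Subtype.ext h7⟩

theorem totient_le [Finite F] {n : ℕ} (hn : 0 < n) [Finite {f : Irr0 F // f.1.natDegree = n}] :
    Nat.totient (Nat.card F ^ n - 1) ≤ n * Nat.card {f : Irr0 F // f.1.natDegree = n} := by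
  classical
  obtain ⟨p, hp⟩ := CharP.exists F
  have : Fact p.Prime := ⟨CharP.char_is_prime F p⟩
  have : NeZero n := ⟨hn.ne'⟩
  let K := FiniteField.Extension F p n
  have := Fintype.ofFinite K
  have := Fintype.ofFinite {f : Irr0 F // f.1.natDegree = n}
  have h1 : Fintype.card Kˣ = Nat.card F ^ n - 1 := by
    rw [Fintype.card_units, ← Nat.card_eq_fintype_card, FiniteField.natCard_extension]
  have h2 : ∀ g : Kˣ, orderOf g = Fintype.card Kˣ → (minpoly F g.1).natDegree = n := fun g hg => by
    refine Eq.trans ?_ (FiniteField.finrank_extension F p n)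
    rw [← Field.primitive_element_iff_minpoly_natDegree_eq, eq_top_iff]
    intro x _
    rcases eq_or_ne x 0 with rfl | hx
    · exact zero_mem _
    · have : Units.mk0 x hx ∈ Subgroup.zpowers g := by
        rw [Subgroup.eq_top_of_card_eq (Subgroup.zpowers g)
          (by rw [Nat.card_zpowers, hg, Nat.card_eq_fintype_card])]
        trivial
      obtain ⟨k, hk⟩ := (mem_powers_iff_mem_zpowers.2 this)
      have hk : g.1 ^ k = x := congrArg Units.val hk
      exact hk ▸ pow_mem (IntermediateField.mem_adjoin_simple_self F g.1) k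
  rw [← h1, ← IsCyclic.card_orderOf_eq_totient (dvd_refl _), Nat.card_eq_fintype_card,
    ← Finset.card_univ (α := {f : Irr0 F // f.1.natDegree = n}), ← Finset.card_image_of_injective
      (f := fun f : {f : Irr0 F // f.1.natDegree = n} => f.1.1) Finset.univ
      (Subtype.val_injective.comp Subtype.val_injective)]
  refine Finset.card_le_mul_card_image_of_maps_to (f := fun g : Kˣ => minpoly F g.1) (fun g hg => ?_) _
    fun f hf => ?_
  · have h3 : IsIntegral F g.1 := Algebra.IsIntegral.isIntegral _
    exact Finset.mem_image.2 ⟨⟨⟨_, minpoly.monic h3, minpoly.irreducible h3,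
      minpoly.coeff_zero_ne_zero h3 g.ne_zero⟩, h2 g (Finset.mem_filter.1 hg).2⟩, Finset.mem_univ _, rfl⟩
  · obtain ⟨f, -, rfl⟩ := Finset.mem_image.1 hf
    refine le_trans (Finset.card_le_card_of_injOn (t := (f.1.1.aroots K).toFinset) Units.val
      (fun g hg => ?_) Units.val_injective.injOn) ((Multiset.toFinset_card_le _).trans
        ((card_roots' _).trans (natDegree_map_le.trans f.2.le)))
    rw [Finset.mem_coe, Multiset.mem_toFinset, mem_aroots]
    exact ⟨f.1.2.1.ne_zero, by rw [← (Finset.mem_filter.1 hg).2]; exact minpoly.aeval _ _⟩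

end Cfsg.Agent.Hall
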