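import Cfsg.Agent.Hall.Basic
import Cfsg.Agent.Hall.Av
/-!
# Derivatives of class functions (restriction to the mirabolic subgroup) and the Leibniz rule
-/
set_option autoImplicit false
set_option linter.unusedSectionVars false

namespace Cfsg.Agent.Hall
open Module Cfsg.Agent.GLn

universe u

/-- a space with an endomorphism fixing a functional -/
structure TObj (F : Type u) [Field F] where
  V : Type u
  [acg : AddCommGroup V]
  [mod : Module F V]
  [fd : FiniteDimensional F V]
  x : End F V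
  l : V →ₗ[F] F
  h : ∀ v, l (x v) = l v

attribute [instance] TObj.acg TObj.mod TObj.fd

/-- isomorphism of triples -/
def tobjSetoid (F : Type u) [Field F] : Setoid (TObj F) :=
  ⟨fun A B => ∃ e : A.V ≃ₗ[F] B.V, (∀ v, e (A.x v) = B.x (e v)) ∧ ∀ v, B.l (e v) = A.l v,
    ⟨fun _ => ⟨LinearEquiv.refl _ _, fun _ => rfl, fun _ => rfl⟩,
     fun ⟨e, h1, h2⟩ => ⟨e.symm, fun v => by rw [e.symm_apply_eq, h1, e.apply_symm_apply],
       fun v => by rw [← h2, e.apply_symm_apply]⟩,
     fun ⟨e, h1, h2⟩ ⟨e', h1', h2'⟩ => ⟨e.trans e', fun v => by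
       rw [LinearEquiv.trans_apply, LinearEquiv.trans_apply, h1, h1'], fun v => by
       rw [LinearEquiv.trans_apply, h2', h2]⟩⟩⟩

/-- isomorphism classes of triples -/
def TCls (F : Type u) [Field F] : Type (u + 1) := Quotient (tobjSetoid F)

variable {F : Type u} [Field F]
variable {V : Type u} [AddCommGroup V] [Module F V] [FiniteDimensional F V]
  {A : Type u} [AddCommGroup A] [Module F A] [FiniteDimensional F A]
  {B : Type u} [AddCommGroup B] [Module F B] [FiniteDimensional F B]

/-- the class of a triple -/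
def tcl (x : End F V) (l : V →ₗ[F] F) (h : ∀ v, l (x v) = l v) : TCls F := Quotient.mk _ ⟨V, x, l, h⟩

theorem tcl_eq {x : End F V} {l : V →ₗ[F] F} {h : ∀ v, l (x v) = l v} {a : End F A} {m : A →ₗ[F] F}
    {h' : ∀ v, m (a v) = m v} (e : V ≃ₗ[F] A) (h1 : ∀ v, e (x v) = a (e v)) (h2 : ∀ v, m (e v) = l v) :
    tcl x l h = tcl a m h' := Quotient.sound ⟨e, h1, h2⟩

theorem tcls_ind {P : TCls F → Prop}
    (h : ∀ (V : Type u) [AddCommGroup V] [Module F V] [FiniteDimensional F V] (x : End F V)
      (l : V →ₗ[F] F) (h : ∀ v, l (x v) = l v), P (tcl x l h)) (c : TCls F) : P c := by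
  induction c using Quotient.ind with
  | _ A => exact h A.V A.x A.l A.h

/-- forget the functional -/
def forget : TCls F → Cls F :=
  Quotient.lift (fun A : TObj F => cl A.x) fun _ _ ⟨e, h, _⟩ => cl_eq e h

/-- the zero functional -/
def zcl : Cls F → TCls F :=
  Quotient.lift (fun A : Obj F => tcl A.x 0 fun _ => rfl) fun _ _ h =>
    tcl_eq _ (sim_iff.1 h).choose_spec fun _ => rfl

theorem forget_tcl (x : End F V) (l : V →ₗ[F] F) (h : ∀ v, l (x v) = l v) :
    forget (tcl x l h) = cl x := rfl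

theorem zcl_cl (x : End F V) : zcl (cl x) = tcl x 0 fun _ => rfl := rfl

theorem tcl_zero {x : End F V} {l : V →ₗ[F] F} {h : ∀ v, l (x v) = l v} (hl : l = 0) :
    tcl x l h = zcl (cl x) := by subst hl; rfl

/-- functions on triples -/
abbrev TF (F : Type u) [Field F] : Type (u + 1) := TCls F → ℂ

/-- restriction -/
def res : CF F →ₗ[ℂ] TF F where
  toFun φ t := φ (forget t)
  map_add' _ _ := rfl
  map_smul' _ _ := rfl

/-- the part at the zero functional -/
def zp : TF F →ₗ[ℂ] CF F where
  toFun α := ⟨fun c => α (zcl c)⟩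
  map_add' _ _ := rfl
  map_smul' _ _ := rfl

theorem res_tcl (φ : CF F) (x : End F V) (l : V →ₗ[F] F) (h : ∀ v, l (x v) = l v) :
    res φ (tcl x l h) = φ (cl x) := rfl

theorem zp_apply (α : TF F) (c : Cls F) : zp α c = α (zcl c) := rfl

theorem zp_res [Finite F] (φ : CF F) : zp (res φ) = φ := cf_ext fun _ _ _ _ _ => rfl

theorem fix_sub {x : End F V} {l : V →ₗ[F] F} (h : ∀ v, l (x v) = l v) {W : Submodule F V}
    (hW : Inv x W) (v : W) : (l ∘ₗ W.subtype) (x.restrict hW v) = (l ∘ₗ W.subtype) v := h v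

theorem fix_quo {x : End F V} {l : V →ₗ[F] F} (h : ∀ v, l (x v) = l v) {W : Submodule F V}
    (hW : Inv x W) (hl : W ≤ LinearMap.ker l) (v : V ⧸ W) :
    W.liftQ l hl (W.mapQ W x hW v) = W.liftQ l hl v := by
  obtain ⟨v, rfl⟩ := W.mkQ_surjective v
  exact h v

open Classical in
/-- the restricted triple -/
noncomputable def tsub (x : End F V) (l : V →ₗ[F] F) (h : ∀ v, l (x v) = l v) (W : Submodule F V) :
    TCls F :=
  if hW : Inv x W then tcl (x.restrict hW) (l ∘ₗ W.subtype) (fix_sub h hW) else tcl x l h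

open Classical in
/-- the quotient triple -/
noncomputable def tquo (x : End F V) (l : V →ₗ[F] F) (h : ∀ v, l (x v) = l v) (W : Submodule F V) :
    TCls F :=
  if hW : Inv x W ∧ W ≤ LinearMap.ker l then
    tcl (W.mapQ W x hW.1) (W.liftQ l hW.2) (fix_quo h hW.1 hW.2) else tcl x l h

section
variable {x : End F V} {l : V →ₗ[F] F} {h : ∀ v, l (x v) = l v} {W : Submodule F V}

theorem tsub_eq {a : End F A} {m : A →ₗ[F] F} {h' : ∀ v, m (a v) = m v} (i : A →ₗ[F] V)
    (hi : Function.Injective i) (hW : LinearMap.range i = W) (h1 : ∀ v, i (a v) = x (i v))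
    (h2 : ∀ v, l (i v) = m v) : tsub x l h W = tcl a m h' := by
  subst hW
  rw [tsub, dif_pos (inv_range h1)]
  refine (tcl_eq (x := a) (LinearEquiv.ofInjective i hi) (fun v => ?_) h2).symm
  exact Subtype.ext (h1 v)

theorem tquo_eq {b : End F B} {m : B →ₗ[F] F} {h' : ∀ v, m (b v) = m v} (p : V →ₗ[F] B)
    (hp : Function.Surjective p) (hW : LinearMap.ker p = W) (h1 : ∀ v, p (x v) = b (p v))
    (h2 : ∀ v, m (p v) = l v) : tquo x l h W = tcl b m h' := by
  subst hW
  rw [tquo, dif_pos ⟨inv_ker h1, fun v hv => by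
    rw [LinearMap.mem_ker] at hv ⊢
    rw [← h2, hv, map_zero]⟩]
  refine tcl_eq (p.quotKerEquivOfSurjective hp) (fun v => ?_) fun v => ?_
  · obtain ⟨v, rfl⟩ := Submodule.mkQ_surjective _ v
    exact h1 v
  · obtain ⟨v, rfl⟩ := Submodule.mkQ_surjective _ v
    exact h2 v

theorem tsub_of_inv (hW : Inv x W) :
    tsub x l h W = tcl (x.restrict hW) (l ∘ₗ W.subtype) (fix_sub h hW) := dif_pos hW

theorem tquo_of_inv (hW : Inv x W) (hl : W ≤ LinearMap.ker l) :
    tquo x l h W = tcl (W.mapQ W x hW) (W.liftQ l hl) (fix_quo h hW hl) := dif_pos ⟨hW, hl⟩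

theorem forget_tsub (hW : Inv x W) : forget (tsub x l h W) = sub x W := by
  rw [tsub_of_inv hW, sub_of_inv hW]; rfl

theorem forget_tquo (hW : Inv x W) (hl : W ≤ LinearMap.ker l) : forget (tquo x l h W) = quo x W := by
  rw [tquo_of_inv hW hl, quo_of_inv hW]; rfl

theorem tsub_of_le (hW : Inv x W) (hl : W ≤ LinearMap.ker l) : tsub x l h W = zcl (sub x W) := by
  rw [tsub_of_inv hW, sub_of_inv hW]
  exact tcl_zero (LinearMap.ext fun v => hl v.2)

end

variable [Finite F]

theorem sum_inv_equiv {x : End F V} {a : End F A} (e : A ≃ₗ[F] V) (he : ∀ v, e (a v) = x (e v))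
    (G : Submodule F V → ℂ) : ∑ K ∈ inv a, G (K.map (e : A →ₗ[F] V)) = ∑ W ∈ inv x, G W := by
  classical
  rw [sum_inv_sub (i := (e : A →ₗ[F] V)) e.injective he, Finset.filter_true_of_mem fun W _ => by simp]

theorem quo_map_equiv {x : End F V} {a : End F A} (e : A ≃ₗ[F] V) (he : ∀ v, e (a v) = x (e v))
    {K : Submodule F A} (hK : Inv a K) : quo x (K.map (e : A →ₗ[F] V)) = quo a K := by
  rw [← quo_comap (p := (e : A →ₗ[F] V)) e.surjective he (hK.map he),
    Submodule.comap_map_eq_of_injective e.injective]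

omit [Finite F] in
theorem map_le_ker_iff {l : V →ₗ[F] F} {m : A →ₗ[F] F} {i : A →ₗ[F] V} (h : ∀ v, l (i v) = m v)
    {K : Submodule F A} : K.map i ≤ LinearMap.ker l ↔ K ≤ LinearMap.ker m := by
  rw [Submodule.map_le_iff_le_comap, ← LinearMap.ker_comp, show l ∘ₗ i = m from LinearMap.ext h]

open Classical in
/-- the product over subspaces inside the kernel -/
noncomputable def lmul (φ : CF F) (β : TF F) : TF F :=
  Quotient.lift (fun A : TObj F => ∑ W ∈ inv A.x,
    if W ≤ LinearMap.ker A.l then φ (sub A.x W) * β (tquo A.x A.l A.h W) else 0)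
    fun A B ⟨e, h1, h2⟩ => by
      rw [← sum_inv_equiv e h1]
      refine Finset.sum_congr rfl fun K hK => ?_
      have hK := mem_inv.1 hK
      simp only [map_le_ker_iff (i := (e : A.V →ₗ[F] B.V)) h2]
      split_ifs with hl
      · rw [sub_map e.injective h1 hK, tquo_of_inv hK hl]
        congr 2
        refine (tquo_eq (K.mkQ ∘ₗ (e.symm : B.V →ₗ[F] A.V)) (K.mkQ_surjective.comp e.symm.surjective)
          ?_ (fun v => ?_) fun v => ?_).symm
        · rw [LinearMap.ker_comp, Submodule.ker_mkQ, Submodule.map_equiv_eq_comap_symm]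
        · obtain ⟨v, rfl⟩ := e.surjective v
          rw [← h1]
          simp only [LinearMap.comp_apply, LinearEquiv.coe_coe, LinearEquiv.symm_apply_apply]
          rfl
        · obtain ⟨v, rfl⟩ := e.surjective v
          rw [h2]
          simp only [LinearMap.comp_apply, LinearEquiv.coe_coe, LinearEquiv.symm_apply_apply]
          rfl
      · rfl

open Classical in
/-- the product over subspaces not inside the kernel -/
noncomputable def rmul (α : TF F) (φ : CF F) : TF F :=
  Quotient.lift (fun A : TObj F => ∑ W ∈ inv A.x,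
    if W ≤ LinearMap.ker A.l then 0 else α (tsub A.x A.l A.h W) * φ (quo A.x W))
    fun A B ⟨e, h1, h2⟩ => by
      rw [← sum_inv_equiv e h1]
      refine Finset.sum_congr rfl fun K hK => ?_
      have hK := mem_inv.1 hK
      simp only [map_le_ker_iff (i := (e : A.V →ₗ[F] B.V)) h2]
      split_ifs with hl
      · rfl
      · rw [quo_map_equiv e h1 hK, tsub_of_inv hK]
        congr 2
        exact (tsub_eq ((e : A.V →ₗ[F] B.V) ∘ₗ K.subtype) (e.injective.comp K.injective_subtype)
          (by rw [LinearMap.range_comp, Submodule.range_subtype]) (fun v => h1 v) fun v => h2 v).symm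

open Classical in
theorem lmul_tcl (φ : CF F) (β : TF F) (x : End F V) (l : V →ₗ[F] F) (h : ∀ v, l (x v) = l v) :
    lmul φ β (tcl x l h) = ∑ W ∈ inv x,
      if W ≤ LinearMap.ker l then φ (sub x W) * β (tquo x l h W) else 0 := rfl

open Classical in
theorem rmul_tcl (α : TF F) (φ : CF F) (x : End F V) (l : V →ₗ[F] F) (h : ∀ v, l (x v) = l v) :
    rmul α φ (tcl x l h) = ∑ W ∈ inv x,
      if W ≤ LinearMap.ker l then 0 else α (tsub x l h W) * φ (quo x W) := rfl

theorem res_mul (φ ψ : CF F) : res (φ * ψ) = lmul φ (res ψ) + rmul (res φ) ψ := by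
  refine funext (tcls_ind fun V _ _ _ x l h => ?_)
  rw [Pi.add_apply, lmul_tcl, rmul_tcl, res_tcl, mul_cl, ← Finset.sum_add_distrib]
  refine Finset.sum_congr rfl fun W hW => ?_
  have hW := mem_inv.1 hW
  split_ifs with hl
  · rw [add_zero, ← forget_tquo (h := h) hW hl]; rfl
  · rw [zero_add, ← forget_tsub (h := h) hW]; rfl

theorem zp_lmul (φ : CF F) (β : TF F) : zp (lmul φ β) = φ * zp β := by
  refine cf_ext fun V _ _ _ x => ?_
  rw [zp_apply, zcl_cl, lmul_tcl, mul_cl]
  refine Finset.sum_congr rfl fun W hW => ?_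
  have hW := mem_inv.1 hW
  have hl : W ≤ LinearMap.ker (0 : V →ₗ[F] F) := by simp
  rw [if_pos hl, tquo_of_inv hW hl, quo_of_inv hW, zp_apply,
    tcl_zero (Submodule.linearMap_qext _ (by ext; simp))]

theorem zp_rmul (α : TF F) (φ : CF F) : zp (rmul α φ) = 0 := by
  refine cf_ext fun V _ _ _ x => ?_
  rw [zp_apply, zcl_cl, rmul_tcl]
  exact Finset.sum_eq_zero fun W _ => if_pos (by simp)

/-- extension of an endomorphism by one dimension -/
def ext (y : End F V) (b : V) : End F (V × F) :=
  (y.coprod (LinearMap.toSpanSingleton F V b)).prod (LinearMap.snd F V F)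

omit [Finite F] [FiniteDimensional F V] in
theorem ext_apply (y : End F V) (b : V) (v : V × F) : ext y b v = (y v.1 + v.2 • b, v.2) := rfl

omit [Finite F] [FiniteDimensional F V] in
theorem fix_ext (y : End F V) (b : V) (v : V × F) :
    LinearMap.snd F V F (ext y b v) = LinearMap.snd F V F v := rfl

/-- the class of the extension -/
def ecl (y : End F V) (b : V) : TCls F := tcl (ext y b) (LinearMap.snd F V F) (fix_ext y b)

omit [Finite F] in
theorem ecl_eq {x : End F V} {a : End F A} (e : A ≃ₗ[F] V) (he : ∀ v, e (a v) = x (e v)) (b : A) :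
    ecl a b = ecl x (e b) :=
  tcl_eq (e.prodCongr (LinearEquiv.refl F F)) (fun v => by simp [ext_apply, he]) fun _ => rfl

variable (ψ : AddChar F ℂ)

/-- the derivative operator -/
noncomputable def der : End ℂ (TF F) where
  toFun α := Quotient.lift (fun A : TObj F => av fun b : A.V => α (ecl A.x b) * ψ (A.l b))
    fun _ _ ⟨e, h1, h2⟩ => av_equiv e.toEquiv fun b => by rw [ecl_eq e h1, ← h2]; rfl
  map_add' α β := funext (tcls_ind fun V _ _ _ x l h => by
    have := finite_space (F := F) V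
    exact (av_congr fun b => add_mul _ _ _).trans (av_add _ _))
  map_smul' c α := funext (tcls_ind fun V _ _ _ x l h => by
    have := finite_space (F := F) V
    exact (av_congr fun b => mul_assoc _ _ _).trans (mul_av _ _).symm)

theorem der_tcl (α : TF F) (x : End F V) (l : V →ₗ[F] F) (h : ∀ v, l (x v) = l v) :
    der ψ α (tcl x l h) = av fun b : V => α (ecl x b) * ψ (l b) := rfl

variable {ψ}

open Classical in
theorem lmul_ecl (φ : CF F) (β : TF F) (y : End F V) (b : V) :
    lmul φ β (ecl y b) = ∑ K ∈ inv y, φ (sub y K) *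
      if hK : Inv y K then β (ecl (K.mapQ K y hK) (K.mkQ b)) else 0 := by
  have h1 : ∀ v, LinearMap.inl F V F (y v) = ext y b (LinearMap.inl F V F v) := fun v => by
    simp [ext_apply]
  rw [ecl, lmul_tcl, ← Finset.sum_filter, ← LinearMap.range_inl,
    ← sum_inv_sub LinearMap.inl_injective h1]
  refine Finset.sum_congr rfl fun K hK => ?_
  have hK := mem_inv.1 hK
  rw [sub_map LinearMap.inl_injective h1 hK, dif_pos hK]
  congr 2
  refine tquo_eq (K.mkQ.prodMap LinearMap.id) (K.mkQ_surjective.prodMap Function.surjective_id) ?_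
    (fun v => ?_) fun _ => rfl
  · rw [LinearMap.ker_prodMap, Submodule.ker_mkQ, LinearMap.ker_id, Submodule.map_inl]
  · simp [ext_apply]

theorem der_lmul (hψ : ψ ≠ 1) (φ : CF F) (β : TF F) : der ψ (lmul φ β) = lmul φ (der ψ β) := by
  refine funext (tcls_ind fun V _ _ _ y μ h => ?_)
  have := finite_space (F := F) V
  rw [der_tcl, lmul_tcl]
  simp only [lmul_ecl, Finset.sum_mul, av_sum, mul_assoc, ← mul_av]
  refine Finset.sum_congr rfl fun K hK => ?_
  have hK := mem_inv.1 hK
  simp only [dif_pos hK]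
  split_ifs with hl
  · rw [tquo_of_inv hK hl, der_tcl, ← av_surj K.mkQ.toAddMonoidHom K.mkQ_surjective]
    rfl
  · rw [av_vanish hψ hl, mul_zero]
    intro b w hw
    rw [map_add, (Submodule.Quotient.mk_eq_zero K).2 hw |> (K.mkQ_apply w).trans, add_zero]

/-- the shear embedding -/
def shear (K : Submodule F V) (c : V) : (K × F) →ₗ[F] V × F :=
  (K.subtype.coprod (LinearMap.toSpanSingleton F V c)).prod (LinearMap.snd F K F)

omit [Finite F] [FiniteDimensional F V] in
theorem shear_apply (K : Submodule F V) (c : V) (v : K × F) : shear K c v = (v.1.1 + v.2 • c, v.2) := rfl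

omit [Finite F] [FiniteDimensional F V] in
theorem mem_range_shear {K : Submodule F V} {c : V} {v : V × F} :
    v ∈ LinearMap.range (shear K c) ↔ v.1 - v.2 • c ∈ K := by
  constructor
  · rintro ⟨w, rfl⟩
    simp [shear_apply]
  · intro h
    exact ⟨(⟨_, h⟩, v.2), by simp [shear_apply]⟩

open Classical in
theorem sum_inv_ext (y : End F V) (b c : V) (G : Submodule F (V × F) → ℂ) :
    ∑ W ∈ (inv (ext y b)).filter ((c, 1) ∈ ·), G W =
      ∑ K ∈ (inv y).filter (y c + b - c ∈ ·), G (LinearMap.range (shear K c)) := by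
  symm
  refine Finset.sum_nbij' (fun K => LinearMap.range (shear K c))
    (fun W => W.comap (LinearMap.inl F V F)) ?_ ?_ ?_ ?_ fun _ _ => rfl
  · intro K hK
    obtain ⟨h1, h2⟩ := Finset.mem_filter.1 hK
    refine Finset.mem_filter.2 ⟨mem_inv.2 fun v hv => ?_, by rw [mem_range_shear]; simp⟩
    rw [mem_range_shear] at hv ⊢
    have := K.add_mem (mem_inv.1 h1 _ hv) (K.smul_mem v.2 h2)
    convert this using 1
    simp only [ext_apply, map_sub, map_smul, smul_sub, smul_add]
    abel
  · intro W hW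
    obtain ⟨h1, h2⟩ := Finset.mem_filter.1 hW
    refine Finset.mem_filter.2 ⟨mem_inv.2 ((mem_inv.1 h1).comap fun v => by simp [ext_apply]), ?_⟩
    have := W.sub_mem (mem_inv.1 h1 _ h2) h2
    simpa [ext_apply] using this
  · intro K _
    ext v
    rw [Submodule.mem_comap, mem_range_shear]
    simp
  · intro W hW
    obtain ⟨-, h2⟩ := Finset.mem_filter.1 hW
    ext v
    rw [mem_range_shear, Submodule.mem_comap, ← W.sub_mem_iff_left (x := v) (W.smul_mem v.2 h2)]
    congr! 1
    ext <;> simp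

open Classical in
theorem card_affine [Fintype V] {W : Submodule F (V × F)}
    (hW : ¬ W ≤ LinearMap.ker (LinearMap.snd F V F)) :
    (Finset.univ.filter fun c : V => (c, (1 : F)) ∈ W).card =
      Nat.card (W.comap (LinearMap.inl F V F)) := by
  obtain ⟨w, hw, hw'⟩ := SetLike.not_le_iff_exists.1 hW
  have hw' : w.2 ≠ 0 := hw'
  have h1 : (w.2⁻¹ • w.1, (1 : F)) ∈ W := by
    convert W.smul_mem w.2⁻¹ hw using 1
    ext <;> simp [hw']
  rw [← Fintype.card_subtype, ← Nat.card_eq_fintype_card]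
  refine Nat.card_congr ((Equiv.subRight (w.2⁻¹ • w.1)).subtypeEquiv fun c => ?_)
  rw [Submodule.mem_comap, ← W.sub_mem_iff_left h1]
  simp

open Classical in
theorem rmul_ecl [Fintype V] (α : TF F) (φ : CF F) (y : End F V) (b : V) :
    rmul α φ (ecl y b) = ∑ c : V, ∑ K ∈ inv y, (Nat.card K : ℂ)⁻¹ * φ (quo y K) *
      if h : Inv y K ∧ y c + b - c ∈ K then α (ecl (y.restrict h.1) ⟨_, h.2⟩) else 0 := by
  rw [ecl, rmul_tcl]
  have h1 : ∀ W ∈ inv (ext y b), (if W ≤ LinearMap.ker (LinearMap.snd F V F) then 0 else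
      α (tsub (ext y b) (LinearMap.snd F V F) (fix_ext y b) W) * φ (quo (ext y b) W)) =
      ∑ c : V, if (c, (1 : F)) ∈ W then (Nat.card (W.comap (LinearMap.inl F V F)) : ℂ)⁻¹ *
        φ (quo (ext y b) W) * α (tsub (ext y b) (LinearMap.snd F V F) (fix_ext y b) W) else 0 := by
    intro W _
    split_ifs with hW
    · exact (Finset.sum_eq_zero fun c _ => if_neg fun hc => one_ne_zero (α := F) (hW hc)).symm
    · have : (Nat.card (W.comap (LinearMap.inl F V F)) : ℂ) ≠ 0 := Nat.cast_ne_zero.2 Nat.card_pos.ne'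
      rw [← Finset.sum_filter, Finset.sum_const, card_affine hW, nsmul_eq_mul]
      field_simp
  rw [Finset.sum_congr rfl h1, Finset.sum_comm]
  refine Finset.sum_congr rfl fun c _ => ?_
  rw [← Finset.sum_filter, sum_inv_ext, Finset.sum_filter]
  refine Finset.sum_congr rfl fun K hK => ?_
  have hK := mem_inv.1 hK
  by_cases hc : y c + b - c ∈ K
  · rw [if_pos hc, dif_pos ⟨hK, hc⟩, show (LinearMap.range (shear K c)).comap (LinearMap.inl F V F) = K by
      ext v; rw [Submodule.mem_comap, mem_range_shear]; simp, quo_of_inv hK]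
    congr 2
    · refine congrArg φ (quo_eq (K.mkQ ∘ₗ (LinearMap.id.coprod (-LinearMap.toSpanSingleton F V c)))
        (fun v => ?_) ?_ fun v => ?_)
      · obtain ⟨v, rfl⟩ := K.mkQ_surjective v
        exact ⟨(v, 0), by simp⟩
      · ext v
        rw [mem_range_shear, LinearMap.ker_comp, Submodule.ker_mkQ]
        simp [sub_eq_add_neg]
      · change K.mkQ _ = K.mkQ _
        rw [Submodule.mkQ_apply, Submodule.mkQ_apply, Submodule.Quotient.eq]
        convert K.smul_mem v.2 hc using 1
        simp [ext_apply, smul_sub, smul_add]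
        abel
    · refine tsub_eq (shear K c) (fun v w h => ?_) rfl (fun v => ?_) fun _ => rfl
      · simp only [shear_apply, Prod.mk.injEq] at h
        obtain ⟨h1, h2⟩ := h
        rw [h2, add_left_inj] at h1
        exact Prod.ext (Subtype.ext h1) h2
      · simp [ext_apply, shear_apply, smul_sub, smul_add]
        abel
  · rw [if_neg hc, dif_neg fun h => hc h.2, mul_zero]

theorem der_rmul (α : TF F) (φ : CF F) :
    der ψ (rmul α φ) = rmul (der ψ α) φ + lmul (zp (der ψ α)) (res φ) := by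
  classical
  refine funext (tcls_ind fun V _ _ _ y μ h => ?_)
  have := finite_space (F := F) V
  have := Fintype.ofFinite V
  have h1 : (rmul (der ψ α) φ + lmul (zp (der ψ α)) (res φ)) (tcl y μ h) =
      ∑ K ∈ inv y, der ψ α (tsub y μ h K) * φ (quo y K) := by
    rw [Pi.add_apply, rmul_tcl, lmul_tcl, ← Finset.sum_add_distrib]
    refine Finset.sum_congr rfl fun K hK => ?_
    have hK := mem_inv.1 hK
    split_ifs with hl
    · rw [zero_add, tsub_of_le hK hl, ← forget_tquo (h := h) hK hl]; rfl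
    · rw [add_zero]
  rw [h1, der_tcl]
  simp only [rmul_ecl, Finset.sum_mul, av_sum]
  rw [Finset.sum_comm]
  refine Finset.sum_congr rfl fun K hK => ?_
  have hK := mem_inv.1 hK
  rw [← av_sum, av_eq, Finset.sum_comm, tsub_of_inv hK, der_tcl, av_eq]
  have h2 : ∀ c : V, ∑ b : V, ((Nat.card K : ℂ)⁻¹ * φ (quo y K) *
      if h : Inv y K ∧ y c + b - c ∈ K then α (ecl (y.restrict h.1) ⟨_, h.2⟩) else 0) * ψ (μ b) =
      (Nat.card K : ℂ)⁻¹ * (∑ w : K, α (ecl (y.restrict hK) w) * ψ ((μ ∘ₗ K.subtype) w)) *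
        φ (quo y K) := by
    intro c
    rw [mul_right_comm]
    simp only [mul_assoc, ← Finset.mul_sum]
    congr 2
    symm
    refine Finset.sum_of_injOn (fun w : K => w.1 + c - y c) (fun v _ w _ e => ?_)
      (fun _ _ => Finset.mem_univ _) (fun b _ hb => ?_) fun w _ => ?_
    · exact Subtype.ext (by simpa using e)
    · rw [dif_neg fun h => hb ⟨⟨_, h.2⟩, Finset.mem_coe.2 (Finset.mem_univ _), by simp only; abel⟩,
        zero_mul]
    · have e : y c + (w.1 + c - y c) - c = w.1 := by abel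
      rw [dif_pos ⟨hK, e.symm ▸ w.2⟩]
      simp only [e, map_sub, map_add, h, add_sub_cancel_right]
      rfl
  rw [Finset.sum_congr rfl fun c _ => h2 c, ← av_eq, av_const]

theorem lmul_add (φ : CF F) (α β : TF F) : lmul φ (α + β) = lmul φ α + lmul φ β :=
  funext (tcls_ind fun V _ _ _ x l h => by
    simp only [Pi.add_apply, lmul_tcl, ← Finset.sum_add_distrib]
    refine Finset.sum_congr rfl fun W _ => ?_
    split_ifs
    · rw [mul_add]
    · rw [add_zero])

variable (ψ) in
/-- the `k`-th derivative -/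
noncomputable def dk (k : ℕ) : CF F →ₗ[ℂ] CF F := zp ∘ₗ (der ψ ^ k) ∘ₗ res

theorem dk_apply (k : ℕ) (φ : CF F) : dk ψ k φ = zp ((der ψ ^ k) (res φ)) := rfl

theorem dk_zero (φ : CF F) : dk ψ 0 φ = φ := zp_res φ

theorem der_pow_mul (hψ : ψ ≠ 1) (φ χ : CF F) (k : ℕ) :
    (der ψ ^ k) (res (φ * χ)) = lmul φ ((der ψ ^ k) (res χ)) + rmul ((der ψ ^ k) (res φ)) χ +
      ∑ i ∈ Finset.range k, lmul (dk ψ (i + 1) φ) ((der ψ ^ (k - (i + 1))) (res χ)) := by
  induction k with
  | zero => simpa using res_mul φ χ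
  | succ k ih =>
    rw [pow_succ', End.mul_apply, ih, map_add, map_add, map_sum, der_lmul hψ, der_rmul,
      Finset.sum_range_succ, Nat.sub_self, pow_zero, End.one_apply, dk_apply, pow_succ', End.mul_apply,
      End.mul_apply, add_assoc, add_assoc, add_assoc, add_comm (lmul (zp _) _)]
    congr 3
    refine Finset.sum_congr rfl fun i hi => ?_
    rw [der_lmul hψ, ← End.mul_apply, ← pow_succ', show k - (i + 1) + 1 = k + 1 - (i + 1) by
      have := Finset.mem_range.1 hi; omega]

/-- the Leibniz rule -/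
theorem dk_mul (hψ : ψ ≠ 1) (φ χ : CF F) (k : ℕ) :
    dk ψ k (φ * χ) = ∑ i ∈ Finset.range (k + 1), dk ψ i φ * dk ψ (k - i) χ := by
  rw [dk_apply, der_pow_mul hψ, map_add, map_add, map_sum, zp_rmul, add_zero, zp_lmul,
    Finset.sum_range_succ', dk_zero, add_comm]
  simp only [zp_lmul]
  rfl

end Cfsg.Agent.Hall
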