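import Cfsg.Agent.Hall.Char
import Cfsg.Agent.GLn.ParabCard
/-!
# Permutation characters on flags as Hall products; the Jacobi-Trudi determinant
-/
set_option autoImplicit false
set_option linter.unusedSectionVars false

namespace Cfsg.Agent.Hall
open Module Cfsg Cfsg.Agent.GLn Cfsg.Agent.CharLib
open scoped MatrixGroups

universe u

section group
variable {G L : Type*} [Group G] [Group L] [Finite G]

theorem av_surj_mul (p : G →* L) (hp : Function.Surjective p) (f : L → ℂ) :
    av (fun m => f (p m)) = av f :=
  av_surj (M := Additive G) (N := Additive L) (MonoidHom.toAdditive p) hp f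

open Classical in
theorem fixed_eq (H : Subgroup G) (g : G) :
    fixedPointCharacter H g = H.index * av fun x => if x⁻¹ * g * x ∈ H then 1 else 0 := by
  have := Fintype.ofFinite G
  have h1 := QuotientGroup.card_preimage_mk H (MulAction.fixedBy (G ⧸ H) g)
  have h2 : (Nat.card H : ℂ) ≠ 0 := Nat.cast_ne_zero.2 Nat.card_pos.ne'
  have h3 : (H.index : ℂ) ≠ 0 := Nat.cast_ne_zero.2 H.index_ne_zero_of_finite
  rw [av_eq, Finset.sum_boole, ← Fintype.card_subtype, ← Nat.card_eq_fintype_card,
    Nat.card_congr (Equiv.subtypeEquivRight (q := (· ∈ QuotientGroup.mk ⁻¹' MulAction.fixedBy (G ⧸ H) g))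
      fun x => by
        rw [Set.mem_preimage, MulAction.mem_fixedBy, MulAction.Quotient.smul_mk, eq_comm,
          QuotientGroup.eq, smul_eq_mul, mul_assoc]),
    h1, ← H.card_mul_index, fixedPointCharacter]
  push_cast
  field_simp

theorem indFun_eq_av [Fintype G] (K : Subgroup G) (θ : K → ℂ) (g : G) :
    indFun K θ g = K.index * av fun x => extendByZero K θ (x⁻¹ * g * x) := by
  have h3 : (K.index : ℂ) ≠ 0 := Nat.cast_ne_zero.2 K.index_ne_zero_of_finite
  rw [av_eq, indFun, ← K.card_mul_index]
  push_cast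
  field_simp

theorem indFun_fixed [Fintype G] (K P : Subgroup G) (hP : P ≤ K) (f : K →* L) (hf : Function.Surjective f)
    (Q : Subgroup L) (hQ : P.subgroupOf K = Q.comap f) :
    indFun K (fun k => fixedPointCharacter Q (f k)) = fixedPointCharacter P := by
  classical
  have := Finite.of_surjective f hf
  funext g
  have h1 : ∀ z, extendByZero K (fun k => fixedPointCharacter Q (f k)) z =
      (P.relIndex K : ℂ) * av fun k : K => if (k : G)⁻¹ * z * k ∈ P then 1 else 0 := fun z => by
    by_cases hz : z ∈ K
    · rw [extendByZero_of_mem _ _ hz, fixed_eq, ← av_surj_mul f hf, Subgroup.relIndex, hQ,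
        Subgroup.index_comap_of_surjective _ hf]
      congr 2
      funext k
      rw [← map_inv, ← map_mul, ← map_mul, ← Subgroup.mem_comap, ← hQ, Subgroup.mem_subgroupOf]
      rfl
    · rw [extendByZero_of_not_mem _ _ hz, av_congr (g := fun _ => 0) fun k => if_neg fun h => hz (by
        simpa [mul_assoc] using K.mul_mem (K.mul_mem k.2 (hP h)) (K.inv_mem k.2)), av_zero, mul_zero]
  rw [indFun_eq_av, fixed_eq, ← Subgroup.relIndex_mul_index hP]
  simp only [h1, ← mul_av]
  rw [av_comm, ← av_const (ι := K) (av fun x => if x⁻¹ * g * x ∈ P then 1 else 0), Nat.cast_mul,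
    mul_left_comm, mul_assoc]
  congr 2
  exact av_congr fun k => av_equiv (Equiv.mulRight k.1) fun x => by simp [mul_assoc]

theorem fixed_equiv (e : G ≃* L) (H : Subgroup L) (g : G) :
    fixedPointCharacter H (e g) = fixedPointCharacter (H.comap e.toMonoidHom) g := by
  classical
  have := Finite.of_surjective e e.surjective
  rw [fixed_eq, fixed_eq, Subgroup.index_comap_of_surjective _ e.surjective]
  congr 1
  exact (av_equiv e.toEquiv fun x => by simp).symm

end group

variable {F : Type u} [Field F] [Finite F]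

/-- the trivial character in a given degree -/
noncomputable def hk (k : ℕ) : CF F := ⟨fun c => if dim c = k then 1 else 0⟩

theorem hk_apply (k : ℕ) (c : Cls F) : (hk k : CF F) c = if dim c = k then 1 else 0 := rfl

theorem hk_zero : (hk 0 : CF F) = 1 := rfl

theorem dim_of_mul {a b : ℕ} {φ χ : CF F} (h : ∀ c, φ c ≠ 0 → dim c = a) (h' : ∀ c, χ c ≠ 0 → dim c = b) :
    ∀ c, (φ * χ) c ≠ 0 → dim c = a + b := by
  refine cls_ind fun V _ _ _ x hx => ?_
  rw [mul_cl] at hx
  obtain ⟨W, hW, h0⟩ := Finset.exists_ne_zero_of_sum_ne_zero hx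
  have hW := mem_inv.1 hW
  rw [dim_cl, ← dim_quo hW, ← dim_sub hW, h _ (left_ne_zero_of_mul h0), h' _ (right_ne_zero_of_mul h0),
    add_comm]

theorem dim_of_hk {k : ℕ} (c : Cls F) (h : (hk k : CF F) c ≠ 0) : dim c = k := by
  by_contra h'
  exact h (if_neg h')

theorem dim_of_prod (μ : ℕ → ℕ) (r : ℕ) :
    ∀ c, (∏ i ∈ Finset.range r, hk (μ i) : CF F) c ≠ 0 → dim c = ∑ i ∈ Finset.range r, μ i := by
  induction r with
  | zero => exact dim_of_hk (k := 0)
  | succ r ih =>
    rw [Finset.prod_range_succ, Finset.sum_range_succ]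
    exact dim_of_mul ih dim_of_hk

theorem on_prod (μ : ℕ → ℕ) (r : ℕ) : ∀ (V : Type u) [AddCommGroup V] [Module F V] [FiniteDimensional F V]
    (c : ℕ → Submodule F V), Monotone c → (∀ s ≤ r, finrank F (c s) = ∑ i ∈ Finset.range s, μ i) →
    c r = ⊤ → on V (∏ i ∈ Finset.range r, hk (μ i)) =
      fixedPointCharacter (⨅ s ≤ r, par (c s)) := by
  induction r with
  | zero =>
    intro V _ _ _ c _ h1 h2
    have := finite_space (F := F) (End F V)
    have h3 := h1 0 le_rfl
    rw [h2, finrank_top] at h3
    funext g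
    have h4 : (⨅ s ≤ 0, par (c s)) = ⊤ := by
      simp only [iInf_eq_top, Nat.le_zero]
      rintro _ rfl
      exact eq_top_iff.2 fun g _ v _ => h2 ▸ Submodule.mem_top
    rw [h4, fixed_eq]
    simpa [on, av_const] using (one_apply (cl g.1)).trans (if_pos h3)
  | succ r ih =>
    intro V _ _ _ c hc h1 h2
    have := finite_space (F := F) (End F V)
    have := Fintype.ofFinite (End F V)ˣ
    have h3 := h1 r (Nat.le_succ r)
    rw [Finset.prod_range_succ, on_mul (dim_of_prod μ r) _ h3, ← indFun_fixed (par (c r)) _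
      (iInf₂_le r (Nat.le_succ r)) (parSub (c r)) (fun y => ?_)
      (⨅ s ≤ r, par ((c s).comap (c r).subtype)) ?_,
      ← ih (c r) _ (fun a b h => Submodule.comap_mono (hc h)) (fun s hs => ?_)
        (Submodule.comap_subtype_self _)]
    · congr 1
      funext p
      have h4 := dim_quo p.2
      have h5 := h1 _ le_rfl
      rw [h2, finrank_top, Finset.sum_range_succ] at h5
      rw [hk_apply, if_pos (by omega), mul_one, sub_of_inv p.2]
      rfl
    · rw [(Submodule.comapSubtypeEquivOfLe (hc hs)).finrank_eq, h1 s (by omega)]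
    · ext p
      simp only [Subgroup.mem_subgroupOf, Subgroup.mem_iInf, Subgroup.mem_comap, mem_par]
      refine ⟨fun h s hs v hv => h s (by omega) v.1 hv, fun h s hs v hv => ?_⟩
      rcases hs.eq_or_lt with rfl | hs
      · exact h2 ▸ Submodule.mem_top
      · exact h s (by omega) ⟨v, hc (by omega : s ≤ r) hv⟩ hv
    · obtain ⟨e, he⟩ := Submodule.exists_linearEquiv_restrict_eq
        (LinearMap.GeneralLinearGroup.toLinearEquiv y)
      exact ⟨⟨LinearMap.GeneralLinearGroup.ofLinearEquiv e, fun v hv => he ⟨v, hv⟩ ▸ Subtype.property _⟩,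
        Units.ext (LinearMap.ext fun v => Subtype.ext (he v).symm)⟩

theorem fixed_parabolic {n : ℕ} {μ : Fin n → ℕ} (hμ : ∑ i, μ i = n) (g : GL (Fin n) F) :
    fixedPointCharacter (parabolicGL n F μ) g = (∏ i, hk (μ i) : CF F) (gcl g) := by
  classical
  let ν : ℕ → ℕ := fun i => if h : i < n then μ ⟨i, h⟩ else 0
  let c : ℕ → Submodule F (Fin n → F) := fun s =>
    Submodule.pi {i | s ≤ compLabel μ i} fun _ => ⊥
  have hc : ∀ s v, v ∈ c s ↔ ∀ i, s ≤ compLabel μ i → v i = 0 := fun s v => Iff.rfl
  let e : GL (Fin n) F ≃* (End F (Fin n → F))ˣ := Matrix.GeneralLinearGroup.toLin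
  have h1 := on_prod ν n (Fin n → F) c (fun a b h v hv i hi => hv i (h.trans hi)) (fun s hs => ?_)
    (eq_top_iff.2 fun v _ i hi => absurd (compLabel_lt hμ i) (not_lt.2 hi))
  · have h2 := congrFun h1 (e g)
    rw [fixed_equiv, ← Fin.prod_univ_eq_prod_range (fun i => hk (ν i))] at h2
    simp only [ν, Fin.is_lt, dif_pos] at h2
    refine Eq.trans ?_ h2.symm
    congr 1
    ext x
    simp only [Subgroup.mem_comap, Subgroup.mem_iInf, mem_par, parabolicGL_eq, mem_parab]
    refine ⟨fun h s _ v hv i hi => ?_, fun h i j hij => ?_⟩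
    · change ∑ j, x.1 i j * v j = 0
      refine Finset.sum_eq_zero fun j _ => ?_
      by_cases h3 : s ≤ compLabel μ j
      · exact mul_eq_zero_of_right _ (hv j h3)
      · exact mul_eq_zero_of_left (h (lt_of_lt_of_le (not_le.1 h3) hi)) _
    · have := h (compLabel μ i) (compLabel_lt hμ i).le (Pi.single j 1) (fun k hk =>
        Pi.single_eq_of_ne (fun e => by subst e; exact absurd hij (not_lt.2 hk)) _) i (le_refl (compLabel μ i))
      have h3 : x.1.mulVec (Pi.single j 1) i = 0 := this
      rwa [Matrix.mulVec_single_one] at h3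
  · have h2 : finrank F (c s) = Fintype.card {i // compLabel μ i < s} := by
      rw [← finrank_fintype_fun_eq_card F]
      refine LinearEquiv.finrank_eq (LinearEquiv.ofBijective
        (LinearMap.funLeft F F Subtype.val ∘ₗ (c s).subtype) ⟨?_, fun w => ?_⟩)
      · rw [injective_iff_map_eq_zero]
        refine fun v hv => Subtype.ext (funext fun i => ?_)
        by_cases h : compLabel μ i < s
        · exact congrFun hv ⟨i, h⟩
        · exact v.2 i (not_lt.1 h)
      · exact ⟨⟨fun i => if h : compLabel μ i < s then w ⟨i, h⟩ else 0, fun i hi => dif_neg (not_lt.2 hi)⟩,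
          funext fun i => dif_pos i.2⟩
    rw [h2, Fintype.card_subtype, Finset.card_eq_sum_card_fiberwise (f := compLabel μ) (t := Finset.range s)
      fun i hi => by simpa using hi]
    refine Finset.sum_congr rfl fun t ht => ?_
    have h3 := Finset.mem_range.1 ht
    simp only [ν, dif_pos (h3.trans_le hs), ← card_compLabel_eq hμ, Finset.filter_filter]
    exact congrArg _ (Finset.filter_congr fun i _ => ⟨fun h => h.2, fun h => ⟨h ▸ h3, h⟩⟩)

theorem det_hessenberg {R : Type*} [CommRing R] (h e : ℕ → R) (h0 : h 0 = 1)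
    (he : ∀ k, ∑ j ∈ Finset.range (k + 1), e j * h (k - j) = if k = 0 then 1 else 0) (n : ℕ) :
    (Matrix.of fun j i : Fin n => if j.val ≤ 1 + i.val then h (1 + i.val - j.val) else 0).det =
      (-1) ^ n * e n := by
  have e0 : e 0 = 1 := by simpa [h0] using he 0
  cases n with
  | zero => simp [e0]
  | succ n =>
    let U : Matrix (Fin (n + 1)) (Fin (n + 1)) R := Matrix.of fun k j => if k ≤ j then e (j - k) else 0
    have h1 : U.det = 1 := by
      rw [Matrix.det_of_isUpperTriangular (M := U) fun _ _ h => if_neg (not_le.2 h)]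
      simp [U, e0]
    have h2 : ∀ k i : Fin (n + 1), (U * Matrix.of fun j i : Fin (n + 1) =>
        if j.val ≤ 1 + i.val then h (1 + i.val - j.val) else 0) k i =
        (if 1 + i.val = k then 1 else 0) - if i.val = n then e (n + 1 - k) else 0 := by
      intro k i
      have h3 : ∑ j ∈ Finset.range (n + 2), (if k.val ≤ j then e (j - k) else 0) *
          (if j ≤ 1 + i.val then h (1 + i.val - j) else 0) = if 1 + i.val = k then 1 else 0 := by
        by_cases h4 : k.val ≤ 1 + i.val
        · rw [← Finset.sum_subset (s₁ := Finset.Ico k.val (1 + i.val + 1))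
            (fun j hj => by simp only [Finset.mem_Ico, Finset.mem_range] at hj ⊢; omega)
            (fun j _ hj => by
              simp only [Finset.mem_Ico, not_and_or, not_le, not_lt] at hj
              rcases hj with hj | hj
              · rw [if_neg (not_le.2 hj), zero_mul]
              · rw [if_neg (show ¬ j ≤ 1 + i.val by omega), mul_zero]), Finset.sum_Ico_eq_sum_range,
            show 1 + i.val + 1 - k = 1 + i.val - k + 1 by omega, if_congr (show 1 + i.val = k ↔
              1 + i.val - k = 0 by omega) rfl rfl, ← he]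
          refine Finset.sum_congr rfl fun j hj => ?_
          have := Finset.mem_range.1 hj
          rw [if_pos (by omega), if_pos (by omega), Nat.add_sub_cancel_left, Nat.sub_sub]
        · rw [if_neg (by omega)]
          refine Finset.sum_eq_zero fun j _ => ?_
          by_cases h5 : k.val ≤ j
          · rw [if_neg (show ¬ j ≤ 1 + i.val by omega), mul_zero]
          · rw [if_neg h5, zero_mul]
      rw [← h3, Finset.sum_range_succ, Finset.sum_range, if_pos k.2.le, eq_sub_iff_add_eq, Matrix.mul_apply]
      congr 1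
      by_cases h4 : i.val = n
      · rw [if_pos h4, if_pos (by omega), show 1 + i.val - (n + 1) = 0 by omega, h0, mul_one]
      · rw [if_neg h4, if_neg (by omega), mul_zero]
    rw [← one_mul (Matrix.det _), ← congrArg (· * _) h1, ← Matrix.det_mul, Matrix.det_succ_row_zero,
      Finset.sum_eq_single (Fin.last n) (fun j _ hj => by
        rw [h2, if_neg (by simp), if_neg (show ¬ j.val = n from fun e => hj (Fin.ext e))]; simp) (by simp), h2,
      show Matrix.submatrix _ _ _ = 1 from Matrix.ext fun k i => ?_]
    · simp [pow_succ]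
    · rw [Matrix.submatrix_apply, h2, Fin.succAbove_last, if_neg (show ¬ (Fin.castSucc i).val = n from i.2.ne),
        sub_zero, Matrix.one_apply]
      exact if_congr (by simp only [Fin.ext_iff, Fin.val_succ, Fin.val_castSucc]; omega) rfl rfl

/-- the coefficients of the inverse series -/
noncomputable def ek (k : ℕ) : CF F :=
  (if k = 0 then 1 else 0) - ∑ j : Fin k, ek j * hk (k - j)

theorem sum_ek (k : ℕ) : ∑ j ∈ Finset.range (k + 1), ek j * hk (k - j) = if k = 0 then (1 : CF F) else 0 := by
  rw [Finset.sum_range_succ, Nat.sub_self, hk_zero, mul_one, ek, Finset.sum_range, add_sub_cancel]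

theorem steinberg_eq (n : ℕ) (g : GL (Fin n) F) :
    unipotentCharacterGL n F (fun _ => 1) g = (-1) ^ n * (ek n : CF F) (gcl g) := by
  have h1 := congrArg (fun φ : CF F => φ (gcl g)) (det_hessenberg hk ek hk_zero sum_ek n)
  have h2 : ∀ (z : ℤ) (φ : CF F) (c : Cls F), (z • φ) c = z * φ c := fun z φ c => by
    rw [← Int.cast_smul_eq_zsmul ℂ, smul_apply]
  have h3 : ((-1) ^ n * ek n : CF F) = ((-1) ^ n : ℤ) • ek n := by simp
  simp only [Matrix.det_apply, sum_apply, Units.smul_def, h2, h3, Matrix.of_apply] at h1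
  push_cast at h1
  rw [← h1, unipotentCharacterGL]
  refine Finset.sum_congr rfl fun κ _ => ?_
  split_ifs with h
  · rw [fixed_parabolic (sum_sub_perm (by simp) κ h), Finset.prod_congr rfl fun i _ => if_pos (h i)]
  · obtain ⟨i, hi⟩ := not_forall.1 h
    rw [Finset.prod_eq_zero (Finset.mem_univ i) (if_neg hi), zero_apply, mul_zero]

end Cfsg.Agent.Hall
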