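import Mathlib
/-!
# Layered permutations
-/
set_option autoImplicit false

namespace Cfsg.Agent.Hall
open Equiv

variable {n : ℕ}

/-- a permutation made of increasing runs of consecutive numbers, the runs being decreasing -/
def Lay (π : Perm (Fin n)) (c : ℕ → Prop) : Prop :=
  ∀ i j : Fin n, j.val = i.val + 1 → (c i → (π j).val = (π i).val + 1) ∧ (¬ c i → π j < π i)

open Classical in
/-- the index of the run -/
noncomputable def run (c : ℕ → Prop) (i : ℕ) : ℕ := Nat.count (fun k => ¬ c k) i

theorem run_mono (c : ℕ → Prop) : Monotone (run c) := by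
  classical
  exact Nat.count_monotone _

theorem run_succ_of {c : ℕ → Prop} {i : ℕ} (h : c i) : run c (i + 1) = run c i := by
  simp [run, Nat.count_succ, h]

theorem run_succ_of_not {c : ℕ → Prop} {i : ℕ} (h : ¬ c i) : run c (i + 1) = run c i + 1 := by
  simp [run, Nat.count_succ, h]

theorem run_induction {c : ℕ → Prop} {P : Fin n → Fin n → Prop} (h0 : ∀ i, P i i)
    (h1 : ∀ i j k : Fin n, i ≤ j → k.val = j.val + 1 → c j → P i j → P i k) {i j : Fin n} (hij : i ≤ j)
    (h : run c i = run c j) : P i j := by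
  obtain ⟨j, hj⟩ := j
  induction j with
  | zero => exact (Fin.ext (Nat.le_zero.1 hij) : i = ⟨0, hj⟩) ▸ h0 i
  | succ j ih =>
    rcases hij.eq_or_lt with e | e
    · exact e ▸ h0 i
    · have h2 : i.val ≤ j := Nat.le_of_lt_succ e
      have h3 := run_mono c h2
      by_cases hc : c j
      · exact h1 i ⟨j, by omega⟩ _ h2 rfl hc (ih _ h2 (h.trans (run_succ_of hc)))
      · have := run_succ_of_not hc
        simp only at h
        omega

namespace Lay
variable {π π' : Perm (Fin n)} {c : ℕ → Prop}

theorem eq_of_run (h : Lay π c) {i j : Fin n} (hij : i ≤ j) (e : run c i = run c j) :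
    (π j).val + i = π i + j := by
  refine run_induction (P := fun i j => (π j).val + i = π i + j) (fun _ => rfl)
    (fun i j k _ hk hc ih => ?_) hij e
  have := (h j k hk).1 hc
  omega

theorem lt_of_run (h : Lay π c) {i j : Fin n} (hij : i ≤ j) (e : run c i ≠ run c j) : π j < π i := by
  obtain ⟨j, hj⟩ := j
  induction j with
  | zero => exact absurd (congrArg (run c) (Nat.le_zero.1 hij)) e
  | succ j ih =>
    rcases hij.eq_or_lt with e' | e'
    · exact absurd (congrArg (fun x : Fin n => run c x) e') e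
    have h2 : i.val ≤ j := Nat.le_of_lt_succ e'
    have hj' : j < n := by omega
    have h3 := h ⟨j, hj'⟩ ⟨j + 1, hj⟩ rfl
    have hne : (π ⟨j + 1, hj⟩).val ≠ π i := fun h => e'.ne' (π.injective (Fin.ext h))
    by_cases h4 : run c i = run c j
    · have h5 := h3.2 fun hc => e (h4.trans (run_succ_of hc).symm)
      have h6 := h.eq_of_run (j := ⟨j, hj'⟩) h2 h4
      by_contra h7
      rw [Fin.lt_def] at h5 h7
      simp only at h6
      let k : Fin n := ⟨i + ((π ⟨j + 1, hj⟩).val - π i), by omega⟩
      have h8 : i ≤ k := Nat.le_add_right _ _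
      have h9 : k.val ≤ j := by simp only [k]; omega
      have h10 := h.eq_of_run h8 (le_antisymm (run_mono c h8) (h4 ▸ run_mono c h9))
      have h11 : π k = π ⟨j + 1, hj⟩ := Fin.ext (by simp only [k] at h10 ⊢; omega)
      have := congrArg Fin.val (π.injective h11)
      simp only at this
      omega
    · have h5 := ih hj' h2 h4
      rw [Fin.lt_def] at h5 ⊢
      by_cases hc : c j
      · have := h3.1 hc
        omega
      · have := Fin.lt_def.1 (h3.2 hc)
        omega

theorem lt_iff (h : Lay π c) {i j : Fin n} (hij : i < j) : π i < π j ↔ run c i = run c j := by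
  constructor
  · intro h1
    by_contra h2
    exact lt_asymm h1 (h.lt_of_run hij.le h2)
  · intro h1
    have := h.eq_of_run hij.le h1
    rw [Fin.lt_def] at hij ⊢
    omega

theorem unique (h : Lay π c) (h' : Lay π' c) : π = π' := by
  have h1 : StrictMono (π' ∘ π.symm) := fun a b hab => by
    obtain ⟨a, rfl⟩ := π.surjective a
    obtain ⟨b, rfl⟩ := π.surjective b
    simp only [Function.comp, symm_apply_apply]
    rcases lt_trichotomy a b with e | e | e
    · exact (h'.lt_iff e).2 ((h.lt_iff e).1 hab)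
    · exact absurd hab (by simp [e])
    · exact h'.lt_of_run e.le fun e' => lt_asymm hab ((h.lt_iff e).2 e')
  ext i
  simpa using congrArg Fin.val (congrFun h1.eq_id (π i)).symm

end Lay

theorem exists_lay (n : ℕ) (c : ℕ → Prop) : ∃ π : Perm (Fin n), Lay π c ∧
    ∀ j, π (π j).rev = j.rev ∧ run c (π j).rev = run c j := by
  classical
  let S : Fin n → Finset (Fin n) := fun i => Finset.univ.filter fun j => run c j = run c i
  have hS : ∀ i j, j ∈ S i ↔ run c j = run c i := fun i j => by simp [S]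
  have hne : ∀ i, (S i).Nonempty := fun i => ⟨i, (hS i i).2 rfl⟩
  let a : Fin n → Fin n := fun i => (S i).min' (hne i)
  let b : Fin n → Fin n := fun i => (S i).max' (hne i)
  have ha : ∀ i, (a i).val ≤ i := fun i => (S i).min'_le i ((hS i i).2 rfl)
  have hb : ∀ i, i.val ≤ b i := fun i => (S i).le_max' i ((hS i i).2 rfl)
  have ha' : ∀ i, run c (a i) = run c i := fun i => (hS _ _).1 ((S i).min'_mem _)
  have hb' : ∀ i, run c (b i) = run c i := fun i => (hS _ _).1 ((S i).max'_mem _)
  have hab : ∀ i j : Fin n, run c i = run c j → a i = a j ∧ b i = b j := fun i j h => by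
    simp only [a, b, S, h, and_self]
  let σ : Fin n → Fin n := fun i => ⟨a i + b i - i, by have := ha i; have := (b i).2; omega⟩
  have hσ : ∀ i, (σ i).val = a i + b i - i := fun _ => rfl
  have h1 : ∀ i, run c (σ i) = run c i := fun i => by
    have := ha i
    have := hb i
    exact le_antisymm (hb' i ▸ run_mono c (by rw [hσ]; omega)) (ha' i ▸ run_mono c (by rw [hσ]; omega))
  have h2 : Function.Involutive σ := fun i => Fin.ext (by
    have := ha i
    have := hb i
    rw [hσ, (hab _ _ (h1 i)).1, (hab _ _ (h1 i)).2, hσ]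
    omega)
  refine ⟨h2.toPerm.trans Fin.revPerm, fun i j hij => ⟨fun hc => ?_, fun hc => ?_⟩, fun j => ⟨?_, ?_⟩⟩
  · have h3 := hab i j (by rw [hij, run_succ_of hc])
    have := ha i
    have := hb j
    have := (b j).2
    change (σ j).rev.val = (σ i).rev.val + 1
    simp only [Fin.val_rev, hσ, h3.1, h3.2] at *
    omega
  · have h3 := run_succ_of_not hc
    have h4 : (b i).val ≤ i := by
      by_contra h
      have := run_mono c (show i.val + 1 ≤ b i by omega)
      rw [hb'] at this
      omega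
    have h5 : j.val ≤ a j := by
      by_contra h
      have := run_mono c (show (a j).val ≤ i by omega)
      rw [ha', hij] at this
      omega
    have := ha i
    have := hb j
    change (σ j).rev < (σ i).rev
    rw [Fin.rev_lt_rev, Fin.lt_def, hσ, hσ]
    omega
  · change (σ (σ j).rev.rev).rev = _
    rw [Fin.rev_rev, h2]
  · change run c (σ j).rev.rev = _
    rw [Fin.rev_rev, h1]

/-- the relevant monomial data -/
def Rel {K : Type*} (π : Perm (Fin n)) (t : Fin n → K) : Prop :=
  ∀ i j : Fin n, j.val = i.val + 1 → π i < π j → (π j).val = (π i).val + 1 ∧ t i = t j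

theorem Rel.exists_lay {K : Type*} {π : Perm (Fin n)} {t : Fin n → K} (h : Rel π t) :
    ∃ c, Lay π c ∧ ∀ i j : Fin n, run c i = run c j → t i = t j := by
  let c : ℕ → Prop := fun k => ∃ i j : Fin n, i.val = k ∧ j.val = k + 1 ∧ π i < π j
  have hc : ∀ i j : Fin n, j.val = i.val + 1 → (c i ↔ π i < π j) := fun i j hij =>
    ⟨fun ⟨i', j', h1, h2, h3⟩ => by rwa [Fin.ext h1, Fin.ext (h2.trans hij.symm)] at h3,
      fun h => ⟨i, j, rfl, hij, h⟩⟩
  refine ⟨c, fun i j hij => ⟨fun h1 => (h i j hij ((hc i j hij).1 h1)).1, fun h1 => ?_⟩, ?_⟩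
  · refine lt_of_le_of_ne (not_lt.1 (mt (hc i j hij).2 h1)) fun e => ?_
    have := congrArg Fin.val (π.injective e)
    omega
  · have : ∀ i j : Fin n, i ≤ j → run c i = run c j → t i = t j := fun i j hij e =>
      run_induction (P := fun i j => t i = t j) (fun _ => rfl)
        (fun i j k _ hk h1 ih => ih.trans (h j k hk ((hc j k hk).1 h1)).2) hij e
    intro i j e
    rcases le_total i j with h1 | h1
    · exact this i j h1 e
    · exact (this j i h1 e.symm).symm

theorem Rel.symm {K : Type*} {π : Perm (Fin n)} {t : Fin n → K} (h : Rel π t) (j : Fin n) :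
    π (π j).rev = j.rev ∧ t (π j).rev = t j := by
  obtain ⟨c, h1, h2⟩ := h.exists_lay
  obtain ⟨π', h3, h4⟩ := Hall.exists_lay n c
  obtain rfl := h1.unique h3
  exact ⟨(h4 j).1, h2 _ _ (h4 j).2⟩

theorem Rel.succ_iff {K : Type*} {π : Perm (Fin n)} {t : Fin n → K} (h : Rel π t) {i j : Fin n}
    (h1 : i < j) (h2 : π i < π j) : (π j).val = (π i).val + 1 ↔ j.val = i.val + 1 := by
  obtain ⟨c, h3, -⟩ := h.exists_lay
  have := h3.eq_of_run h1.le ((h3.lt_iff h1).1 h2)
  omega

theorem card_rel (F : Type*) [Field F] (m : ℕ) :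
    Nat.card {p : Perm (Fin (m + 1)) × (Fin (m + 1) → Fˣ) // Rel p.1 p.2} =
      Nat.card Fˣ * Nat.card F ^ m := by
  classical
  have hs : ∀ k : Fin m, k.succ.val = k.castSucc.val + 1 := fun _ => rfl
  have hs' : ∀ {P : Fin (m + 1) → Fin (m + 1) → Prop}, (∀ k : Fin m, P k.castSucc k.succ) →
      ∀ i j : Fin (m + 1), j.val = i.val + 1 → P i j := fun {P} h i j hij => by
    have := h ⟨i, by omega⟩
    rwa [show Fin.succ ⟨i, by omega⟩ = j from Fin.ext hij.symm] at this
  let Φ : {p : Perm (Fin (m + 1)) × (Fin (m + 1) → Fˣ) // Rel p.1 p.2} → Fˣ × (Fin m → F) := fun p =>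
    (p.1.2 0, fun k => if p.1.1 k.castSucc < p.1.1 k.succ then 0 else p.1.2 k.succ)
  have hl : ∀ p : {p : Perm (Fin (m + 1)) × (Fin (m + 1) → Fˣ) // Rel p.1 p.2},
      Lay p.1.1 fun i => ∃ h : i < m, (Φ p).2 ⟨i, h⟩ = 0 := fun p => hs' fun k => by
    by_cases h : p.1.1 k.castSucc < p.1.1 k.succ
    · exact ⟨fun _ => (p.2 _ _ (hs k) h).1, fun h' => absurd ⟨k.2, if_pos h⟩ h'⟩
    · refine ⟨fun ⟨_, h'⟩ => absurd ((if_neg h).symm.trans h') (Units.ne_zero _), fun _ => ?_⟩
      exact lt_of_le_of_ne (not_lt.1 h) fun e => (Fin.castSucc_lt_succ (i := k)).ne' (p.1.1.injective e)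
  rw [Nat.card_eq_of_bijective Φ ⟨fun p p' e => ?_, fun w => ?_⟩, Nat.card_prod, Nat.card_fun,
    Nat.card_eq_fintype_card (α := Fin m), Fintype.card_fin]
  · have h1 : p.1.1 = p'.1.1 := (hl p).unique (e ▸ hl p')
    refine Subtype.ext (Prod.ext h1 (funext fun i => ?_))
    induction i using Fin.induction with
    | zero => exact congrArg Prod.fst e
    | succ k ih =>
      have h2 := congrFun (congrArg Prod.snd e) k
      simp only [Φ, ← h1] at h2
      by_cases h : p.1.1 k.castSucc < p.1.1 k.succ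
      · rw [← (p.2 _ _ (hs k) h).2, ← (p'.2 _ _ (hs k) (h1 ▸ h)).2, ih]
      · rw [if_neg h, if_neg h] at h2
        exact Units.ext h2
  · obtain ⟨π, h1, -⟩ := exists_lay (m + 1) fun i => ∃ h : i < m, w.2 ⟨i, h⟩ = 0
    let t : Fin (m + 1) → Fˣ := fun i =>
      Fin.induction w.1 (fun k a => if h : w.2 k = 0 then a else Units.mk0 _ h) i
    have ht : ∀ k : Fin m, t k.succ = if h : w.2 k = 0 then t k.castSucc else Units.mk0 _ h :=
      fun k => Fin.induction_succ _ _ _
    have h2 : ∀ k : Fin m, π k.castSucc < π k.succ ↔ w.2 k = 0 := fun k => by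
      have := h1 _ _ (hs k)
      refine ⟨fun h => ?_, fun h => ?_⟩
      · by_contra h'
        exact lt_asymm h (this.2 fun ⟨_, h⟩ => h' h)
      · have := this.1 ⟨k.2, h⟩
        rw [Fin.lt_def]
        omega
    refine ⟨⟨(π, t), hs' fun k h => ⟨(h1 _ _ (hs k)).1 ⟨k.2, (h2 k).1 h⟩, ?_⟩⟩, Prod.ext rfl (funext fun k => ?_)⟩
    · exact ((ht k).trans (dif_pos ((h2 k).1 h))).symm
    · simp only [Φ, h2, ht]
      split_ifs with h
      · exact h.symm
      · rfl

end Cfsg.Agent.Hall
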