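import Cfsg.Agent.Hall.Gelfand
import Cfsg.Agent.Hall.Layer
import Cfsg.Agent.Hall.Char
import Cfsg.Agent.GLn.Bruhat
/-!
# The Gelfand-Graev character of the general linear group
-/
set_option autoImplicit false
set_option linter.unusedSectionVars false

namespace Cfsg.Agent.Hall
open Module Cfsg Cfsg.Agent.GLn Cfsg.Agent.CharLib Matrix Equiv
open scoped MatrixGroups

universe u

variable {F : Type u} [Field F] {n : ℕ}

/-- unitriangular matrices -/
def IsUT (u : Matrix (Fin n) (Fin n) F) : Prop := (∀ i j, j < i → u i j = 0) ∧ ∀ i, u i i = 1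

theorem mul_diag_of_upper {a b : Matrix (Fin n) (Fin n) F} (ha : ∀ i j, j < i → a i j = 0)
    (hb : ∀ i j, j < i → b i j = 0) (i : Fin n) : (a * b) i i = a i i * b i i := by
  rw [mul_apply, Finset.sum_eq_single i (fun k _ hk => ?_) (by simp)]
  rcases lt_or_gt_of_ne hk with h | h
  · rw [ha _ _ h, zero_mul]
  · rw [hb _ _ h, mul_zero]

variable (F n) in
/-- the unitriangular group -/
def ut : Subgroup (GL (Fin n) F) where
  carrier := {g | IsUT g.1}
  one_mem' := ⟨fun _ _ h => one_apply_ne h.ne', fun _ => one_apply_eq _⟩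
  mul_mem' := fun {a b} ha hb => ⟨fun _ _ h => BlockTriangular.mul (b := id) (fun _ _ h => ha.1 _ _ h)
    (fun _ _ h => hb.1 _ _ h) h, fun i => by
      rw [Units.val_mul, mul_diag_of_upper ha.1 hb.1, ha.2, hb.2, one_mul]⟩
  inv_mem' := fun {a} ha => by
    have h1 : ∀ i j, j < i → (a⁻¹).1 i j = 0 := fun _ _ h =>
      (parab F Fin.val).inv_mem (x := a) (fun _ _ h => ha.1 _ _ h) h
    refine ⟨h1, fun i => ?_⟩
    have := mul_diag_of_upper ha.1 h1 i
    rwa [Units.mul_inv, one_apply_eq, ha.2, one_mul, eq_comm] at this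

/-- the sum of the entries above the diagonal -/
def sd (g : Matrix (Fin n) (Fin n) F) : F := ∑ i, ∑ j, if j.val = i.val + 1 then g i j else 0

theorem sd_mul {a b : Matrix (Fin n) (Fin n) F} (ha : IsUT a) (hb : IsUT b) :
    sd (a * b) = sd a + sd b := by
  simp only [sd, ← Finset.sum_add_distrib]
  refine Finset.sum_congr rfl fun i _ => Finset.sum_congr rfl fun j _ => ?_
  split_ifs with h
  · have hij : i ≠ j := fun e => by simp [e] at h
    rw [mul_apply, Finset.sum_eq_add i j hij (fun k _ hk => ?_) (by simp) (by simp), ha.2, hb.2, one_mul,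
      mul_one, add_comm]
    rcases lt_or_gt_of_ne hk.1 with h1 | h1
    · rw [ha.1 _ _ h1, zero_mul]
    · rw [hb.1 _ _ (lt_of_le_of_ne (show j.val ≤ k.val by rw [h]; exact h1) hk.2.symm), mul_zero]
  · rw [add_zero]

theorem sd_one : sd (1 : Matrix (Fin n) (Fin n) F) = 0 :=
  Finset.sum_eq_zero fun i _ => Finset.sum_eq_zero fun j _ => by
    split_ifs with h
    · exact one_apply_ne fun e => by simp [e] at h
    · rfl

theorem sd_transvection {i j : Fin n} (c : F) :
    sd (transvection i j c) = if j.val = i.val + 1 then c else 0 := by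
  have : ∀ a b : Matrix (Fin n) (Fin n) F, sd (a + b) = sd a + sd b := fun a b => by
    simp only [sd, ← Finset.sum_add_distrib]
    refine Finset.sum_congr rfl fun i _ => Finset.sum_congr rfl fun j _ => ?_
    split_ifs <;> simp
  rw [transvection, this, sd_one, zero_add, sd, Finset.sum_eq_single i (fun k _ hk => by simp [hk.symm])
    (by simp), Finset.sum_eq_single j (fun k _ hk => by simp [hk.symm]) (by simp), single_apply_same]

/-- reflection in the antidiagonal -/
def flip (g : GL (Fin n) F) : GL (Fin n) F :=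
  ⟨g.1ᵀ.submatrix Fin.revPerm Fin.revPerm, g⁻¹.1ᵀ.submatrix Fin.revPerm Fin.revPerm,
    by rw [submatrix_mul_equiv, ← transpose_mul, Units.inv_mul, transpose_one, submatrix_one_equiv],
    by rw [submatrix_mul_equiv, ← transpose_mul, Units.mul_inv, transpose_one, submatrix_one_equiv]⟩

theorem flip_apply (g : GL (Fin n) F) (i j : Fin n) : (flip g).1 i j = g.1 j.rev i.rev := rfl

/-- diagonal matrices -/
def dg (t : Fin n → Fˣ) : GL (Fin n) F :=
  ⟨diagonal fun i => t i, diagonal fun i => (t i)⁻¹, by simp [diagonal_mul_diagonal],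
    by simp [diagonal_mul_diagonal]⟩

/-- monomial matrices -/
def mono (p : Perm (Fin n) × (Fin n → Fˣ)) : GL (Fin n) F := permGL F p.1 * dg p.2

theorem mono_apply (p : Perm (Fin n) × (Fin n → Fˣ)) (i j : Fin n) :
    (mono p).1 i j = if i = p.1 j then (p.2 j : F) else 0 := by
  rw [mono, Units.val_mul, dg, mul_diagonal, permGL_apply, boole_mul]

theorem mul_mono (p : Perm (Fin n) × (Fin n → Fˣ)) (u : GL (Fin n) F) (i j : Fin n) :
    (u * mono p).1 i j = u.1 i (p.1 j) * p.2 j := by
  simp [mul_apply, mono_apply]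

theorem mono_mul (p : Perm (Fin n) × (Fin n → Fˣ)) (u : GL (Fin n) F) (i j : Fin n) :
    (mono p * u).1 (p.1 i) j = p.2 i * u.1 i j := by
  simp [mul_apply, mono_apply]

theorem mono_eq {p p' : Perm (Fin n) × (Fin n → Fˣ)} {u v : GL (Fin n) F} (hu : u ∈ ut F n)
    (hv : v ∈ ut F n) (e : u * mono p = mono p' * v) : p = p' := by
  have h1 : ∀ i, u.1 (p'.1 i) (p.1 i) * p.2 i = p'.2 i := fun i => by
    rw [← mul_mono, e, mono_mul, hv.2, mul_one]
  have h2 : ∀ i ∈ Finset.univ, (p'.1 i).val ≤ p.1 i := fun i _ => not_lt.1 fun h => by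
    have := h1 i
    rw [hu.1 _ _ h, zero_mul] at this
    exact Units.ne_zero _ this.symm
  have h3 := (Finset.sum_eq_sum_iff_of_le h2).1 
    ((Equiv.sum_comp p'.1 Fin.val).trans (Equiv.sum_comp p.1 Fin.val).symm)
  have h4 : p.1 = p'.1 := Equiv.ext fun i => Fin.ext (h3 i (Finset.mem_univ _)).symm
  refine Prod.ext h4 (funext fun i => Units.ext ?_)
  rw [← h1, h4, hu.2, one_mul]

/-- transvections -/
def tv {i j : Fin n} (h : i ≠ j) (c : F) : GL (Fin n) F :=
  ⟨transvection i j c, transvection i j (-c), by simp [transvection_mul_transvection_same _ _ h],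
    by simp [transvection_mul_transvection_same _ _ h]⟩

theorem tv_mem {i j : Fin n} (h : i < j) (c : F) : tv h.ne c ∈ ut F n :=
  ⟨fun k l hkl => by
    change transvection i j c k l = 0
    rw [transvection, Matrix.add_apply, one_apply_ne hkl.ne', single_apply_of_ne, add_zero]
    rintro ⟨rfl, rfl⟩
    exact lt_asymm h hkl, fun k => by
    change transvection i j c k k = 1
    rw [transvection, Matrix.add_apply, one_apply_eq, single_apply_of_ne, add_zero]
    rintro ⟨rfl, rfl⟩
    exact lt_irrefl _ h⟩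

variable {ψ : AddChar F ℂ}

theorem rel_iff (hψ : ψ ≠ 1) (p : Perm (Fin n) × (Fin n → Fˣ)) :
    (∀ u ∈ ut F n, ∀ v ∈ ut F n, u * mono p = mono p * v → ψ (sd u.1) = ψ (sd v.1)) ↔ Rel p.1 p.2 := by
  constructor
  · intro h i j hij h1
    have h2 : i < j := by rw [Fin.lt_def]; omega
    have h3 : ∀ c : F, ψ (if (p.1 j).val = (p.1 i).val + 1 then p.2 i * c / p.2 j else 0) = ψ c := by
      intro c
      have := h _ (tv_mem h1 (p.2 i * c / p.2 j)) _ (tv_mem h2 c) (Units.ext (Matrix.ext fun k l => by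
        obtain ⟨k, rfl⟩ := p.1.surjective k
        rw [mul_mono, mono_mul]
        simp only [tv, transvection, Matrix.add_apply, Matrix.one_apply, single_apply,
          EmbeddingLike.apply_eq_iff_eq]
        split_ifs with h4 h5 h5
        · exact absurd (h5.1.trans (h4.trans h5.2.symm)) h2.ne
        · simp [h4]
        · obtain ⟨rfl, rfl⟩ := h5
          simp
        · simp))
      simpa only [tv, sd_transvection, if_pos hij] using this
    obtain ⟨a, ha⟩ : ∃ a, ψ a ≠ 1 := by
      by_contra h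
      push Not at h
      exact hψ (AddChar.ext _ _ h)
    by_cases h4 : (p.1 j).val = (p.1 i).val + 1
    · refine ⟨h4, ?_⟩
      by_contra h5
      have h6 : (p.2 i : F) - p.2 j ≠ 0 := sub_ne_zero.2 fun e => h5 (Units.ext e)
      have h7 := h3 (a * p.2 j / (p.2 i - p.2 j))
      rw [if_pos h4, show p.2 i * (a * p.2 j / (p.2 i - p.2 j)) / p.2 j =
        a * p.2 j / (p.2 i - p.2 j) + a by field_simp; ring, AddChar.map_add_eq_mul] at h7
      refine ha (mul_left_cancel₀ (fun h0 => ?_) (h7.trans (mul_one _).symm))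
      have := ψ.map_add_eq_mul (a * p.2 j / (p.2 i - p.2 j)) (-(a * p.2 j / (p.2 i - p.2 j)))
      simp [h0] at this
    · have := h3 a
      rw [if_neg h4, AddChar.map_zero_eq_one] at this
      exact absurd this.symm ha
  · intro h u hu v hv e
    congr 1
    rw [sd, sd, ← Equiv.sum_comp p.1]
    refine Finset.sum_congr rfl fun i _ => ?_
    rw [← Equiv.sum_comp p.1]
    refine Finset.sum_congr rfl fun j _ => ?_
    have h1 : u.1 (p.1 i) (p.1 j) * p.2 j = p.2 i * v.1 i j := by rw [← mul_mono, e, mono_mul]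
    by_cases h2 : v.1 i j = 0
    · rw [h2, mul_zero, mul_eq_zero, or_iff_left (Units.ne_zero _)] at h1
      simp [h1, h2]
    · have h3 : u.1 (p.1 i) (p.1 j) ≠ 0 := fun h0 => by
        rw [h0, zero_mul] at h1
        exact mul_ne_zero (Units.ne_zero _) h2 h1.symm
      rcases (not_lt.1 (mt (hv.1 i j) h2)).eq_or_lt with h4 | h4
      · simp [h4]
      · have h5 := lt_of_le_of_ne (not_lt.1 (mt (hu.1 _ _) h3)) (p.1.injective.ne h4.ne)
        simp only [h.succ_iff h4 h5]
        split_ifs with h6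
        · rw [(h i j h6 h5).2, mul_comm] at h1
          exact mul_left_cancel₀ (Units.ne_zero _) h1
        · rfl

theorem gdata (hψ : ψ ≠ 1) : GData (ut F n) (fun g => ψ (sd g.1)) flip (Set.range mono) where
  l_one := by simp [sd_one]
  l_mul u hu v hv := by simp only [Units.val_mul, sd_mul hu hv, AddChar.map_add_eq_mul]
  θ_mul g h := Units.ext (by simp only [flip, Units.val_mul, submatrix_mul_equiv, transpose_mul])
  θ_θ g := Units.ext (Matrix.ext fun i j => by simp only [flip_apply, Fin.rev_rev])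
  θ_U u hu := ⟨fun i j h => hu.1 _ _ (Fin.rev_lt_rev.2 h), fun i => hu.2 _⟩
  θ_l u _ := by
    congr 1
    rw [sd, sd, Finset.sum_comm, ← Equiv.sum_comp Fin.revPerm]
    refine Finset.sum_congr rfl fun i _ => ?_
    rw [← Equiv.sum_comp Fin.revPerm]
    refine Finset.sum_congr rfl fun j _ => ?_
    simp only [flip_apply, Fin.revPerm_apply, Fin.rev_rev, Fin.val_rev]
    exact if_congr (by omega) rfl rfl
  θ_M := by
    rintro _ ⟨p, rfl⟩
    refine ⟨(Fin.revPerm * p.1⁻¹ * Fin.revPerm, fun j => p.2 (p.1⁻¹ j.rev)), Units.ext (Matrix.ext fun i j => ?_)⟩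
    rw [flip_apply, mono_apply, mono_apply]
    by_cases h : j.rev = p.1 i.rev
    · simp [h]
    · rw [if_neg h, if_neg fun e => h (by simp [e])]
  cell g := by
    obtain ⟨b, hb, π, u, hu, hu', e⟩ := bruhat g
    have hb : ∀ i j, j < i → b.1 i j = 0 := fun _ _ h => hb h
    have h1 : ∀ i, b.1 i i ≠ 0 := fun i h0 => by
      have := mul_diag_of_upper hb (fun _ _ h => (parab F Fin.val).inv_mem (x := b) (fun _ _ h => hb _ _ h) h) i
      rw [Units.mul_inv, h0, zero_mul, one_apply_eq] at this
      exact one_ne_zero this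
    let t : Fin n → Fˣ := fun i => Units.mk0 _ (h1 i)
    refine ⟨b * (dg t)⁻¹, ⟨fun i j h => ?_, fun i => ?_⟩, _, ⟨(π, t ∘ π), rfl⟩, u⁻¹,
      (ut F n).inv_mem ⟨fun _ _ h => hu h, hu'⟩, ?_⟩
    · change (b.1 * diagonal _ : Matrix (Fin n) (Fin n) F) i j = 0
      rw [mul_diagonal, hb _ _ h, zero_mul]
    · change (b.1 * diagonal _ : Matrix (Fin n) (Fin n) F) i i = 1
      rw [mul_diagonal]
      exact mul_inv_cancel₀ (h1 i)
    · rw [eq_mul_inv_iff_mul_eq, e, mul_assoc, mul_right_inj, eq_inv_mul_iff_mul_eq]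
      refine Units.ext (Matrix.ext fun i j => ?_)
      rw [mono_apply, Units.val_mul, dg, diagonal_mul, permGL_apply]
      split_ifs with h <;> simp [h]
  uniq := by
    rintro _ ⟨p, rfl⟩ _ ⟨p', rfl⟩ u hu v hv e
    rw [mono_eq hu hv e]
  fix := by
    rintro _ ⟨p, rfl⟩ h
    have h := (rel_iff hψ p).1 h
    refine Units.ext (Matrix.ext fun i j => ?_)
    rw [flip_apply, mono_apply, mono_apply]
    by_cases h1 : i = p.1 j
    · rw [if_pos h1, h1, if_pos (h.symm j).1.symm, (h.symm j).2]
    · rw [if_neg h1, if_neg fun e => h1 (Fin.rev_injective (p.1.injective (e.symm.trans (h.symm j).1.symm)))]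

/-- the last coordinate -/
def lst (F : Type u) [Field F] : ∀ n : ℕ, (Fin n → F) →ₗ[F] F
  | 0 => 0
  | m + 1 => LinearMap.proj (Fin.last m)

theorem fix_lst {u : Matrix (Fin n) (Fin n) F} (hu : IsUT u) (v : Fin n → F) :
    lst F n (toLin' u v) = lst F n v := by
  cases n with
  | zero => rfl
  | succ m =>
    change ∑ j, u (Fin.last m) j * v j = v (Fin.last m)
    rw [Fin.sum_univ_castSucc, hu.2, one_mul, Finset.sum_eq_zero fun j _ => by
      rw [hu.1 _ _ (Fin.castSucc_lt_last j), zero_mul], zero_add]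

/-- removing the last column -/
def utEquiv (F : Type u) [Field F] (m : ℕ) : {u : Matrix (Fin (m + 1)) (Fin (m + 1)) F // IsUT u} ≃
    {u : Matrix (Fin m) (Fin m) F // IsUT u} × (Fin m → F) where
  toFun u := (⟨u.1.submatrix Fin.castSucc Fin.castSucc, fun _ _ h => u.2.1 _ _ h, fun _ => u.2.2 _⟩,
    fun i => u.1 i.castSucc (Fin.last m))
  invFun p := ⟨Matrix.of (Fin.snoc (α := fun _ => Fin (m + 1) → F)
      (fun i => Fin.snoc (α := fun _ => F) (p.1.1 i) (p.2 i)) (Pi.single (Fin.last m) 1)),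
    fun i j h => by
      induction j using Fin.lastCases with
      | last => exact absurd h (not_lt.2 (Fin.le_last _))
      | cast j =>
        induction i using Fin.lastCases with
        | last => simp
        | cast i => simpa using p.1.2.1 _ _ h,
    fun i => by
      induction i using Fin.lastCases with
      | last => simp
      | cast i => simpa using p.1.2.2 _⟩
  left_inv u := Subtype.ext (Matrix.ext fun i j => by
    induction i using Fin.lastCases with
    | last =>
      induction j using Fin.lastCases with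
      | last => simpa using (u.2.2 _).symm
      | cast j => simpa using (u.2.1 _ _ (Fin.castSucc_lt_last j)).symm
    | cast i => induction j using Fin.lastCases <;> simp)
  right_inv p := Prod.ext (Subtype.ext (Matrix.ext fun i j => by simp)) (funext fun i => by simp)

theorem sd_succ {m : ℕ} (u : Matrix (Fin (m + 1)) (Fin (m + 1)) F) :
    sd u = sd (u.submatrix Fin.castSucc Fin.castSucc) + lst F m fun i => u i.castSucc (Fin.last m) := by
  rw [sd, sd, Fin.sum_univ_castSucc, Finset.sum_eq_zero (s := Finset.univ) (f := fun j : Fin (m + 1) =>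
    if j.val = (Fin.last m).val + 1 then u (Fin.last m) j else 0) fun j _ => if_neg (by
      have := j.2; simp only [Fin.val_last]; omega), add_zero]
  simp only [Fin.sum_univ_castSucc, Finset.sum_add_distrib]
  congr 1
  cases m with
  | zero => rfl
  | succ m =>
    rw [Fin.sum_univ_castSucc, if_pos (by rfl), Finset.sum_eq_zero fun j _ => if_neg (by
      have := j.2; simp only [Fin.val_last, Fin.val_castSucc]; omega), zero_add]
    rfl

variable [Finite F]

theorem der_pow_cl0 (n : ℕ) (α : TF F) : (der ψ ^ n) α (zcl (cl0 F)) =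
    av fun u : {u : Matrix (Fin n) (Fin n) F // IsUT u} =>
      α (tcl (toLin' u.1) (lst F n) (fix_lst u.2)) * ψ (sd u.1) := by
  induction n generalizing α with
  | zero =>
    have : Nonempty {u : Matrix (Fin 0) (Fin 0) F // IsUT u} := ⟨⟨1, (ut F 0).one_mem⟩⟩
    rw [← av_const (ι := {u : Matrix (Fin 0) (Fin 0) F // IsUT u}) ((der ψ ^ 0) α _)]
    refine av_congr fun u => ?_
    rw [tcl_zero (l := lst F 0) rfl, eq_cl0 (c := cl _) (by simp [dim_cl])]
    simp [sd]
  | succ m ih =>
    rw [pow_succ, End.mul_apply, ih]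
    simp only [der_tcl, av_mul]
    rw [← av_prod fun p : {u : Matrix (Fin m) (Fin m) F // IsUT u} × (Fin m → F) =>
      α (ecl (toLin' p.1.1) p.2) * ψ (lst F m p.2) * ψ (sd p.1.1)]
    symm
    refine av_equiv (utEquiv F m) fun u => ?_
    rw [sd_succ, AddChar.map_add_eq_mul, mul_assoc, mul_comm (ψ _)]
    congr 2
    refine tcl_eq (LinearMap.linearEquivOfInjective ((LinearMap.funLeft F F Fin.castSucc).prod
      (LinearMap.proj (Fin.last m))) (fun v w e => ?_) (by simp)) (fun v => Prod.ext ?_ ?_) fun _ => rfl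
    · funext i
      induction i using Fin.lastCases with
      | last => exact congrArg Prod.snd e
      | cast i => exact congrFun (congrArg Prod.fst e) i
    · funext i
      change ∑ j, u.1 i.castSucc j * v j = ∑ j : Fin m, u.1 i.castSucc j.castSucc * v j.castSucc +
        v (Fin.last m) * u.1 i.castSucc (Fin.last m)
      rw [Fin.sum_univ_castSucc, mul_comm (v _)]
    · exact fix_lst u.2 v

theorem del_eq (n : ℕ) (φ : CF F) : del ψ n φ = av fun u : ut F n => mat n φ u * ψ (sd u.1.1) := by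
  rw [del_apply, dk_apply, zp_apply, der_pow_cl0]
  symm
  refine av_equiv (Equiv.ofBijective (fun u => ⟨u.1.1, u.2⟩) ⟨fun u v e =>
    Subtype.ext (Units.ext (congrArg Subtype.val e)), fun u => ?_⟩) fun _ => rfl
  refine ⟨⟨GeneralLinearGroup.mkOfDetNeZero u.1 ?_, u.2⟩, rfl⟩
  rw [det_of_isUpperTriangular (M := u.1) fun _ _ h => u.2.1 _ _ h]
  simp [u.2.2]

theorem IsCh.del_nat (hψ : ψ ≠ 1) {φ : CF F} (h : IsCh n φ) : ∃ m : ℕ, del ψ n φ = m := by
  have := Fintype.ofFinite (GL (Fin n) F)
  rw [del_eq]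
  exact (gdata hψ).nat h.2

theorem IsIr.del_eq_one (hψ : ψ ≠ 1) {φ : CF F} (h : IsIr n φ) (h0 : del ψ n φ ≠ 0) : del ψ n φ = 1 := by
  have := Fintype.ofFinite (GL (Fin n) F)
  rw [del_eq] at h0 ⊢
  exact ((gdata hψ).zero_or_one h.2).resolve_left h0

theorem card_generic (hψ : ψ ≠ 1) (m : ℕ) :
    Nat.card {φ : CF F // IsIr (m + 1) φ ∧ del ψ (m + 1) φ ≠ 0} = Nat.card Fˣ * Nat.card F ^ m := by
  have := Fintype.ofFinite (GL (Fin (m + 1)) F)
  rw [← card_rel, ← Nat.card_congr (Equiv.subtypeSubtypeEquivSubtypeInter _ _),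
    ← Nat.card_congr ((irEquiv F (m + 1)).subtypeEquiv (p := fun χ : IrrCharacter _ =>
      (av fun u : ut F (m + 1) => (χ : GL (Fin (m + 1)) F → ℂ) u * ψ (sd u.1.1)) ≠ 0) fun χ => ?_),
    (gdata hψ).card_eq]
  · symm
    refine Nat.card_eq_of_bijective (fun p => ⟨mono p.1, ⟨_, rfl⟩, (rel_iff hψ _).2 p.2⟩) ⟨fun p p' e => ?_, ?_⟩
    · exact Subtype.ext (mono_eq (one_mem _) (one_mem _) (by simpa using e))
    · rintro ⟨_, ⟨p, rfl⟩, h⟩
      exact ⟨⟨p, (rel_iff hψ _).1 h⟩, rfl⟩
  · rw [del_eq]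
    exact Iff.of_eq (congrArg (fun f : GL (Fin (m + 1)) F → ℂ =>
      (av fun u : ut F (m + 1) => f u * ψ (sd u.1.1)) ≠ 0)
        (mat_ofG (isChar_classFun (isChar_of_irr χ.2))).symm)

end Cfsg.Agent.Hall
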