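import Cfsg.Agent.StB.Corner
import Cfsg.Agent.Hall.Av
/-!
# The Gelfand trick for a linear character of a subgroup
-/
set_option autoImplicit false
set_option linter.unusedSectionVars false

namespace Cfsg.Agent.Hall
open Module Cfsg Cfsg.Agent.CharLib Cfsg.Agent.StB
open scoped ComplexConjugate

variable {G : Type*} [Group G] [Fintype G]

theorem sum_hat_conj {χ : G → ℂ} (hχ : IsIrrCharacter G χ) (x y : GA G) :
    ∑ g, hat χ (x * og g * y * og g⁻¹) = Nat.card G / χ 1 * hat χ y * hat χ x := by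
  simp only [mul_assoc x, ← map_sum, ← Finset.mul_sum]
  rw [← avg, comm_of_og (avg_comm y), hat_central_mul hχ (avg_comm y),
    hat_avg (isChar_classFun (isChar_of_irr hχ))]
  ring

theorem sum_hat_mul {χ : G → ℂ} (hχ : IsIrrCharacter G χ) (x y : GA G) :
    ∑ h, hat χ (x * og h) * hat χ (y * og h⁻¹) = Nat.card G / χ 1 * hat χ (y * x) := by
  have hc := isChar_classFun (isChar_of_irr hχ)
  have h0 := isIrr_one_ne_zero hχ
  have key : ∀ g k : G, ∑ h, χ (g * h) * χ (k * h⁻¹) = Nat.card G / χ 1 * χ (k * g) := by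
    intro g k
    have h1 := irr_convolution (isChar_classFun (isChar_inv (isChar_of_irr hχ))) hχ (k * g)
    have h2 := inner_irr_self hχ
    rw [inner_eq_inv (isChar_of_irr hχ), inv_mul_eq_one₀ card_ne_zero] at h2
    simp only [mul_comm (χ _⁻¹) (χ _), ← h2] at h1
    rw [div_mul_eq_mul_div, ← h1, mul_div_cancel_left₀ _ h0]
    refine Fintype.sum_equiv (Equiv.mulRight k⁻¹) _ _ fun h => ?_
    simp [classFun_mul_comm hc g, mul_assoc]
  obtain ⟨f, rfl⟩ := exists_el x
  obtain ⟨f', rfl⟩ := exists_el y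
  simp only [el, Finset.sum_mul, Finset.mul_sum, smul_mul_assoc, mul_smul_comm, map_sum, map_smul,
    ← map_mul, hat_og, smul_eq_mul]
  rw [Finset.sum_comm]
  conv_rhs => rw [Finset.sum_comm]
  refine Finset.sum_congr rfl fun k _ => ?_
  rw [Finset.sum_comm]
  refine Finset.sum_congr rfl fun g _ => ?_
  rw [mul_left_comm, mul_left_comm (_ / _), ← key, Finset.mul_sum, Finset.mul_sum]
  exact Finset.sum_congr rfl fun h _ => by ring

theorem hat_cube {χ : G → ℂ} (hχ : IsIrrCharacter G χ) {e : GA G} (he : e * e = e)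
    (hc : ∀ g h, e * og g * e * og h * e = e * og h * e * og g * e) : hat χ e ^ 3 = hat χ e := by
  have hf := isChar_classFun (isChar_of_irr hχ)
  have h0 : (Nat.card G : ℂ) / χ 1 ≠ 0 := div_ne_zero card_ne_zero (isIrr_one_ne_zero hχ)
  have he' : ∀ a, e * (e * a) = e * a := fun a => by rw [← mul_assoc, he]
  have h1 : ∀ h, hat χ (e * og h * e) = hat χ (e * og h) := fun h => by rw [hat_comm hf, he']
  have h2 : ∑ h, ∑ g, hat χ (e * og h⁻¹ * e * og g * (e * og h * e) * og g⁻¹) =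
      Nat.card G / χ 1 * (Nat.card G / χ 1 * hat χ e) := by
    simp only [sum_hat_conj hχ, h1, mul_assoc (_ / _), ← Finset.mul_sum, sum_hat_mul hχ, he]
  have h3 : ∀ g h, e * og h⁻¹ * e * og g * (e * og h * e) * og g⁻¹ =
      e * og h⁻¹ * e * og h * e * og g * e * og g⁻¹ := fun g h => by
    have := congrArg (fun a => e * og h⁻¹ * a * og g⁻¹) (hc g h)
    simpa only [mul_assoc] using this
  have h4 : ∀ h, hat χ (e * og h⁻¹ * e * og h * e) = hat χ (e * og h⁻¹ * e * og h⁻¹⁻¹) := fun h => by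
    rw [hat_comm hf, inv_inv]
    simp only [mul_assoc, he']
  simp only [h3, sum_hat_conj hχ, h4, ← Finset.mul_sum] at h2
  rw [Fintype.sum_equiv (Equiv.inv G) (fun h => hat χ (e * og h⁻¹ * e * og h⁻¹⁻¹))
    (fun h => hat χ (e * og h * e * og h⁻¹)) fun _ => rfl, sum_hat_conj hχ] at h2
  refine mul_left_cancel₀ h0 (mul_left_cancel₀ h0 ?_)
  rw [← h2]
  ring

/-- the data for the Gelfand trick -/
structure GData (U : Subgroup G) (l : G → ℂ) (θ : G → G) (M : Set G) : Prop where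
  l_one : l 1 = 1
  l_mul : ∀ u ∈ U, ∀ v ∈ U, l (u * v) = l u * l v
  θ_mul : ∀ g h, θ (g * h) = θ h * θ g
  θ_θ : ∀ g, θ (θ g) = g
  θ_U : ∀ u ∈ U, θ u ∈ U
  θ_l : ∀ u ∈ U, l (θ u) = l u
  θ_M : ∀ n ∈ M, θ n ∈ M
  cell : ∀ g, ∃ u ∈ U, ∃ n ∈ M, ∃ v ∈ U, g = u * n * v
  uniq : ∀ n ∈ M, ∀ n' ∈ M, ∀ u ∈ U, ∀ v ∈ U, u * n = n' * v → n = n'
  fix : ∀ n ∈ M, (∀ u ∈ U, ∀ v ∈ U, u * n = n * v → l u = l v) → θ n = n

/-- the idempotent -/
noncomputable def ide (U : Subgroup G) (l : G → ℂ) : GA G :=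
  haveI := Fintype.ofFinite U
  ∑ u : U, ((Nat.card U : ℂ)⁻¹ * l u) • og u.1

theorem hat_ide (U : Subgroup G) (l χ : G → ℂ) : hat χ (ide U l) = av fun u : U => χ u * l u := by
  let _ := Fintype.ofFinite U
  simp only [ide, map_sum, map_smul, hat_og, smul_eq_mul, av_eq, Finset.mul_sum]
  exact Finset.sum_congr rfl fun u _ => by ring

namespace GData
variable {U : Subgroup G} {l : G → ℂ} {θ : G → G} {M : Set G} (h : GData U l θ M)
include h

theorem l_inv {u : G} (hu : u ∈ U) : l u * l u⁻¹ = 1 := by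
  rw [← h.l_mul _ hu _ (U.inv_mem hu), mul_inv_cancel, h.l_one]

theorem og_mul {u : G} (hu : u ∈ U) : og u * ide U l = l u⁻¹ • ide U l := by
  let _ := Fintype.ofFinite U
  simp only [ide, Finset.mul_sum, Finset.smul_sum, mul_smul_comm, ← map_mul, smul_smul]
  refine Fintype.sum_equiv (Equiv.mulLeft ⟨u, hu⟩) _ _ fun v => ?_
  simp only [Equiv.coe_mulLeft, Subgroup.coe_mul]
  rw [mul_left_comm, ← h.l_mul _ (U.inv_mem hu) _ (U.mul_mem hu v.2), inv_mul_cancel_left]

theorem mul_og {u : G} (hu : u ∈ U) : ide U l * og u = l u⁻¹ • ide U l := by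
  let _ := Fintype.ofFinite U
  simp only [ide, Finset.sum_mul, Finset.smul_sum, smul_mul_assoc, ← map_mul, smul_smul]
  refine Fintype.sum_equiv (Equiv.mulRight ⟨u, hu⟩) _ _ fun v => ?_
  simp only [Equiv.coe_mulRight, Subgroup.coe_mul]
  rw [mul_left_comm, mul_comm (l u⁻¹), ← h.l_mul _ (U.mul_mem v.2 hu) _ (U.inv_mem hu),
    mul_inv_cancel_right]

theorem idem : ide U l * ide U l = ide U l := by
  let _ := Fintype.ofFinite U
  conv_lhs => enter [1]; rw [ide]
  simp only [Finset.sum_mul, smul_mul_assoc, h.og_mul (Subtype.property _), smul_smul, mul_assoc,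
    h.l_inv (Subtype.property _), ← Finset.sum_smul]
  rw [Finset.sum_const, Finset.card_univ, ← Nat.card_eq_fintype_card, mul_one, nsmul_eq_mul,
    mul_inv_cancel₀ card_ne_zero, one_smul]

theorem sandwich {u v : G} (hu : u ∈ U) (hv : v ∈ U) (g : G) :
    ide U l * og (u * g * v) * ide U l = (l u⁻¹ * l v⁻¹) • (ide U l * og g * ide U l) := by
  rw [map_mul, map_mul, ← mul_assoc, ← mul_assoc, h.mul_og hu, mul_assoc, h.og_mul hv]
  simp only [smul_mul_assoc, mul_smul_comm, smul_smul, mul_comm (l u⁻¹)]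

theorem rel_of_ne_zero {n : G} (hn : ide U l * og n * ide U l ≠ 0) :
    ∀ u ∈ U, ∀ v ∈ U, u * n = n * v → l u = l v := by
  intro u hu v hv e
  have h1 := h.sandwich hu (U.inv_mem hv) n
  rw [e, mul_inv_cancel_right, inv_inv] at h1
  have h2 : l u⁻¹ * l v = 1 := by
    refine smul_left_injective ℂ hn ?_
    simp only
    rw [← h1, one_smul]
  rw [← mul_one (l u), ← h2, ← mul_assoc, h.l_inv hu, one_mul]

theorem θ_inv (g : G) : θ g⁻¹ = (θ g)⁻¹ := by
  have h1 : θ 1 = 1 := by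
    have := h.θ_mul 1 1
    rw [mul_one] at this
    exact left_eq_mul.1 this
  rw [eq_inv_iff_mul_eq_one, ← h.θ_mul, mul_inv_cancel, h1]

theorem sandwich_θ (g : G) : ide U l * og (θ g) * ide U l = ide U l * og g * ide U l := by
  obtain ⟨u, hu, n, hn, v, hv, rfl⟩ := h.cell g
  rw [h.θ_mul, h.θ_mul, ← mul_assoc, h.sandwich (h.θ_U _ hv) (h.θ_U _ hu), h.sandwich hu hv,
    ← h.θ_inv, ← h.θ_inv, h.θ_l _ (U.inv_mem hu), h.θ_l _ (U.inv_mem hv), mul_comm (l u⁻¹)]
  congr 1
  by_cases h1 : ide U l * og n * ide U l = 0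
  · by_cases h2 : ide U l * og (θ n) * ide U l = 0
    · rw [h1, h2]
    · rw [← h.θ_θ n, h.fix _ (h.θ_M _ hn) (h.rel_of_ne_zero h2), h.fix _ (h.θ_M _ hn) (h.rel_of_ne_zero h2)]
  · rw [h.fix _ hn (h.rel_of_ne_zero h1)]

theorem comm (a b : GA G) : ide U l * a * ide U l * b * ide U l = ide U l * b * ide U l * a * ide U l := by
  let _ := Fintype.ofFinite U
  let τ : GA G →ₗ[ℂ] GA G := (MonoidAlgebra.basis G ℂ).constr ℂ fun g => og (θ g)
  have h1 : ∀ g, τ (og g) = og (θ g) := fun g => by rw [← basis_eq, Basis.constr_basis]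
  have h2 : ∀ a b, τ (a * b) = τ b * τ a := fun a b => by
    obtain ⟨x, rfl⟩ := exists_el a
    obtain ⟨y, rfl⟩ := exists_el b
    simp only [el, Finset.sum_mul, Finset.mul_sum, smul_mul_assoc, mul_smul_comm, map_sum, map_smul,
      ← map_mul, h1, h.θ_mul, Finset.smul_sum]
    rw [Finset.sum_comm]
    exact Finset.sum_congr rfl fun g _ => Finset.sum_congr rfl fun h _ => smul_comm _ _ _
  have h3 : τ (ide U l) = ide U l := by
    simp only [ide, map_sum, map_smul, h1]
    refine Fintype.sum_equiv (Function.Involutive.toPerm (fun u : U => ⟨θ u, h.θ_U _ u.2⟩)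
      fun u => Subtype.ext (h.θ_θ u)) _ _ fun u => ?_
    exact congrArg (fun c => ((Nat.card U : ℂ)⁻¹ * c) • og (θ u)) (h.θ_l _ u.2).symm
  have h4 : ∀ a, τ (ide U l * a * ide U l) = ide U l * a * ide U l := fun a =>
    LinearMap.congr_fun (ga_ext (f := τ ∘ₗ LinearMap.mulRight ℂ (ide U l) ∘ₗ LinearMap.mulLeft ℂ (ide U l))
      (f' := LinearMap.mulRight ℂ (ide U l) ∘ₗ LinearMap.mulLeft ℂ (ide U l)) fun g => by
        simp only [LinearMap.comp_apply, LinearMap.mulRight_apply, LinearMap.mulLeft_apply, h2, h3, h1,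
          ← mul_assoc, h.sandwich_θ]) a
  have he' : ∀ a, ide U l * (ide U l * a) = ide U l * a := fun a => by rw [← mul_assoc, h.idem]
  have h5 := h2 (ide U l * a * ide U l) (ide U l * b * ide U l)
  rw [h4, h4] at h5
  have h6 := h4 (a * ide U l * b)
  simp only [mul_assoc, he'] at h5 h6 ⊢
  rw [← h5, h6]

theorem nat {χ : G → ℂ} (hχ : IsCharacter G χ) : ∃ m : ℕ, (av fun u : U => χ u * l u) = m := by
  let _ := Fintype.ofFinite U
  have h1 : IsIrrCharacter U fun u => l u := isIrr_of_mul h.l_one fun u v => h.l_mul _ u.2 _ v.2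
  obtain ⟨m, hm⟩ := inner_char_nat (isChar_comp U.subtype hχ) (isChar_star (isChar_of_irr h1))
  refine ⟨m, ?_⟩
  rw [← hm, av_eq, classInner]
  simp

theorem zero_or_one {χ : G → ℂ} (hχ : IsIrrCharacter G χ) :
    (av fun u : U => χ u * l u) = 0 ∨ (av fun u : U => χ u * l u) = 1 := by
  have h1 := hat_cube hχ h.idem fun g k => h.comm _ _
  obtain ⟨m, hm⟩ := h.nat (isChar_of_irr hχ)
  rw [hat_ide, hm] at h1
  have h2 : m ^ 3 = m := by exact_mod_cast h1
  rw [hm]
  rcases Nat.eq_zero_or_pos m with h3 | h3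
  · left; rw [h3, Nat.cast_zero]
  · right
    have h4 : m * (m * m) = m * 1 := by rw [mul_one]; linarith [pow_three m]
    rw [Nat.eq_one_of_mul_eq_one_left (Nat.eq_of_mul_eq_mul_left h3 h4), Nat.cast_one]

theorem card_eq : Nat.card {χ : IrrCharacter G // (av fun u : U => (χ : G → ℂ) u * l u) ≠ 0} =
    Nat.card {n // n ∈ M ∧ ∀ u ∈ U, ∀ v ∈ U, u * n = n * v → l u = l v} := by
  classical
  let _ := Fintype.ofFinite U
  let e := ide U l
  let H : Submodule ℂ (GA G) := LinearMap.range (LinearMap.mulRight ℂ e ∘ₗ LinearMap.mulLeft ℂ e)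
  have he' : ∀ a, e * (e * a) = e * a := fun a => by rw [← mul_assoc, h.idem]
  have hl : ∀ a : H, e * a = a := by
    rintro ⟨_, a, rfl⟩
    simp [← mul_assoc, e, h.idem]
  have hr : ∀ a : H, a * e = a := by
    rintro ⟨_, a, rfl⟩
    simp [mul_assoc, e, h.idem]
  have hm : ∀ a b : H, a.1 * b.1 ∈ H := fun a b => ⟨a * b, by simp [mul_assoc, hr, ← mul_assoc e, hl]⟩
  let μ : H →ₗ[ℂ] H →ₗ[ℂ] H := LinearMap.mk₂ ℂ (fun a b => ⟨_, hm a b⟩)
    (fun _ _ _ => Subtype.ext (add_mul _ _ _)) (fun _ _ _ => Subtype.ext (smul_mul_assoc _ _ _))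
    (fun _ _ _ => Subtype.ext (mul_add _ _ _)) (fun _ _ _ => Subtype.ext (mul_smul_comm _ _ _))
  have hC : Corner e μ H.subtype := ⟨h.idem, H.injective_subtype, fun _ _ => rfl, hl, hr,
    fun g => ⟨⟨_, og g, rfl⟩, rfl⟩⟩
  have h1 := hC.finrank_center
  have h2 : LinearMap.ker (d0 μ) = ⊤ := by
    rw [LinearMap.ker_eq_top]
    refine LinearMap.ext fun a => LinearMap.ext fun b => Subtype.ext ?_
    have : e * a * e * b * e = e * b * e * a * e := h.comm a b
    simp only [hl, hr, mul_assoc _ _ e] at this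
    exact sub_eq_zero.2 this
  rw [h2, finrank_top] at h1
  simp only [e, hat_ide] at h1
  rw [← h1]
  let v : {n // n ∈ M ∧ ∀ u ∈ U, ∀ v ∈ U, u * n = n * v → l u = l v} → GA G := fun n => e * og n.1 * e
  have h3 : ∀ n n' : G, hat (Pi.single n' 1) (e * og n * e) = (Nat.card U : ℂ)⁻¹ * (Nat.card U : ℂ)⁻¹ *
      ∑ u : U, ∑ w : U, if u * n * w = n' then l u * l w else 0 := by
    intro n n'
    simp only [e, ide, Finset.sum_mul, Finset.mul_sum, smul_mul_assoc, mul_smul_comm, map_sum, map_smul,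
      ← map_mul, hat_og, smul_eq_mul, Pi.single_apply]
    rw [Finset.sum_comm]
    refine Finset.sum_congr rfl fun u _ => Finset.sum_congr rfl fun w _ => ?_
    split_ifs <;> ring
  have h4 : LinearIndependent ℂ v := by
    rw [Fintype.linearIndependent_iff]
    intro a ha n
    have := congrArg (hat (Pi.single n.1 1)) ha
    simp only [map_sum, map_smul, map_zero, v, h3] at this
    rw [Finset.sum_eq_single n] at this
    · refine (smul_eq_zero.1 this).resolve_right (mul_ne_zero (mul_ne_zero (inv_ne_zero card_ne_zero)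
        (inv_ne_zero card_ne_zero)) ?_)
      have h5 : ∀ u w : U, (if u * n.1 * w = n then l u * l w else 0) =
          ((if u * n.1 * w = n then 1 else 0 : ℕ) : ℂ) := fun u w => by
        split_ifs with h6
        · rw [n.2.2 u u.2 _ (U.inv_mem w.2) (eq_mul_inv_of_mul_eq h6), mul_comm, h.l_inv w.2, Nat.cast_one]
        · simp
      simp only [h5, ← Nat.cast_sum, Ne, Nat.cast_eq_zero, Finset.sum_eq_zero_iff]
      intro h6
      simpa using h6 1 (Finset.mem_univ _) 1 (Finset.mem_univ _)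
    · intro n' _ hn
      rw [Finset.sum_eq_zero fun u _ => Finset.sum_eq_zero fun w _ => if_neg fun h6 => hn (Subtype.ext
        (h.uniq _ n'.2.1 _ n.2.1 _ u.2 _ (U.inv_mem w.2) (eq_mul_inv_of_mul_eq h6))), mul_zero, smul_zero]
    · simp
  rw [Nat.card_eq_fintype_card, ← finrank_span_eq_card h4]
  refine congrArg (fun p : Submodule ℂ (GA G) => finrank ℂ p) (le_antisymm ?_ ?_)
  · rintro _ ⟨a, rfl⟩
    obtain ⟨f, rfl⟩ := exists_el a
    rw [el, map_sum]
    refine Submodule.sum_mem _ fun g _ => ?_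
    rw [map_smul]
    refine Submodule.smul_mem _ _ ?_
    obtain ⟨u, hu, n, hn, w, hw, rfl⟩ := h.cell g
    change ide U l * _ * ide U l ∈ _
    rw [h.sandwich hu hw]
    refine Submodule.smul_mem _ _ ?_
    by_cases h5 : ide U l * og n * ide U l = 0
    · rw [h5]; exact zero_mem _
    · exact Submodule.subset_span ⟨⟨n, hn, h.rel_of_ne_zero h5⟩, rfl⟩
  · rw [Submodule.span_le]
    rintro _ ⟨n, rfl⟩
    exact ⟨og n.1, rfl⟩

end GData
end Cfsg.Agent.Hall
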