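import Cfsg.Agent.Hall.Flag
/-!
# The Möbius function of the lattice of invariant subspaces
-/
set_option autoImplicit false
set_option linter.unusedSectionVars false

namespace Cfsg.Agent.Hall
open Module Cfsg Cfsg.Agent.GLn Polynomial

universe u

variable {F : Type u} [Field F] [Finite F]
variable {V : Type u} [AddCommGroup V] [Module F V] [FiniteDimensional F V]
  {A : Type u} [AddCommGroup A] [Module F A] [FiniteDimensional F A]
  {B : Type u} [AddCommGroup B] [Module F B] [FiniteDimensional F B]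

theorem dim_of_ek (k : ℕ) : ∀ c : Cls F, (ek k : CF F) c ≠ 0 → dim c = k := by
  induction k using Nat.strong_induction_on with
  | _ k ih =>
  intro c hc
  rw [ek, sub_apply, sum_apply] at hc
  by_cases h : ∑ j : Fin k, (ek j * hk (k - j) : CF F) c = 0
  · rw [h, sub_zero] at hc
    split_ifs at hc with h0
    · exact h0 ▸ dim_of_hk c hc
    · exact absurd rfl hc
  · obtain ⟨j, -, hj⟩ := Finset.exists_ne_zero_of_sum_ne_zero h
    rw [dim_of_mul (ih j j.2) dim_of_hk c hj, Nat.add_sub_cancel' j.2.le]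

/-- the Möbius function -/
noncomputable def mob (c : Cls F) : ℂ := (ek (dim c) : CF F) c

theorem sum_mob (x : End F V) : ∑ W ∈ inv x, mob (sub x W) = if finrank F V = 0 then 1 else 0 := by
  have h1 := congrArg (fun φ : CF F => φ (cl x)) (sum_ek (finrank F V))
  simp only [sum_apply, mul_cl] at h1
  rw [Finset.sum_comm] at h1
  refine Eq.trans (Finset.sum_congr rfl fun W hW => ?_) (h1.trans ?_)
  · have h2 := dim_sub (mem_inv.1 hW)
    have h3 := dim_quo (mem_inv.1 hW)
    rw [Finset.sum_eq_single (dim (sub x W)), hk_apply, if_pos (by omega), mul_one, mob]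
    · intro j _ hj
      rw [not_not.1 (mt (dim_of_ek j _) hj.symm), zero_mul]
    · intro h
      exact absurd (Finset.mem_range.2 (by omega)) h
  · split_ifs with h
    · exact if_pos h
    · rfl

open Classical in
theorem weisner (n : ℕ) : ∀ (V : Type u) [AddCommGroup V] [Module F V] [FiniteDimensional F V]
    (x : End F V) (S : Submodule F V), finrank F V = n → Inv x S → S ≠ ⊥ →
    ∑ W ∈ (inv x).filter (· ⊔ S = ⊤), mob (sub x W) = 0 := by
  induction n using Nat.strong_induction_on with
  | _ n ih =>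
  intro V _ _ _ x S hn hS h0
  have h1 := sum_mob x
  rw [if_neg fun h => h0 (Submodule.finrank_eq_zero.1 (Nat.le_zero.1 (S.finrank_le.trans_eq h))),
    ← Finset.sum_fiberwise_of_maps_to (t := inv x) (g := (· ⊔ S)) fun W hW => mem_inv.2 fun v hv => by
      obtain ⟨a, ha, b, hb, rfl⟩ := Submodule.mem_sup.1 hv
      rw [map_add]
      exact Submodule.add_mem_sup (mem_inv.1 hW a ha) (hS b hb),
    Finset.sum_eq_single_of_mem ⊤ (mem_inv.2 fun _ _ => trivial)] at h1
  · exact h1
  intro N hN hN'
  have hN := mem_inv.1 hN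
  by_cases h2 : S ≤ N
  · have h3 := sum_inv_sub (x := x) (a := x.restrict hN) N.injective_subtype (fun _ => rfl)
      fun W => if W ⊔ S = N then mob (sub x W) else 0
    have h4 := Submodule.map_comap_eq_self (f := N.subtype) (by rwa [Submodule.range_subtype] : S ≤ _)
    rw [Submodule.range_subtype, ← Finset.sum_filter (s := Finset.filter _ _), Finset.filter_filter,
      Finset.filter_congr (q := fun W => W ⊔ S = N) fun W _ =>
        and_iff_right_of_imp fun h => h ▸ le_sup_left] at h3
    refine h3.symm.trans (Eq.trans ?_ (ih _ (hn ▸ Submodule.finrank_lt hN') N (x.restrict hN)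
      (S.comap N.subtype) rfl (Inv.comap (i := N.subtype) (fun _ => rfl) hS)
      fun h => h0 (by rw [← h4, h, Submodule.map_bot])))
    rw [Finset.sum_filter]
    refine Finset.sum_congr rfl fun K hK => ?_
    rw [sub_map (x := x) (a := x.restrict hN) N.injective_subtype (fun _ => rfl) (mem_inv.1 hK)]
    refine if_congr ?_ rfl rfl
    rw [← (Submodule.map_injective_of_injective N.injective_subtype).eq_iff, Submodule.map_sup, h4,
      Submodule.map_top, Submodule.range_subtype]
  · exact Finset.sum_eq_zero fun W hW => absurd ((Finset.mem_filter.1 hW).2 ▸ le_sup_right) h2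

/-- intertwining maps -/
abbrev Hm (y : End F B) (s : End F A) := {φ : B →ₗ[F] A // ∀ v, φ (y v) = s (φ v)}

theorem mob_blk [Nontrivial A] {s : End F A} (hs : ∀ K, Inv s K → K = ⊥ ∨ K = ⊤) (y : End F B) :
    mob (cl (blk s 0 y)) = -(Nat.card (Hm y s) * mob (cl y)) := by
  classical
  have := finite_space (F := F) (B →ₗ[F] A)
  have := Fintype.ofFinite (Hm y s)
  have h0 : LinearMap.range (LinearMap.inl F A B) ≠ ⊥ := by
    rw [Ne, LinearMap.range_eq_bot]
    intro h
    obtain ⟨a, ha⟩ := exists_ne (0 : A)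
    exact ha (congrArg Prod.fst (LinearMap.congr_fun h a))
  have h1 := weisner _ (A × B) (blk s 0 y) _ rfl (inv_blk s 0 y) h0
  let gr : Hm y s → Submodule F (A × B) := fun φ => LinearMap.range (φ.1.prod LinearMap.id)
  have hgr : ∀ φ v, v ∈ gr φ ↔ φ.1 v.2 = v.1 := fun φ v =>
    ⟨by rintro ⟨w, rfl⟩; rfl, fun h => ⟨v.2, Prod.ext h rfl⟩⟩
  have h2 : ∀ (φ : Hm y s) v, (φ.1.prod LinearMap.id) (y v) = blk s 0 y ((φ.1.prod LinearMap.id) v) :=
    fun φ v => by simp [blk_apply, φ.2]
  rw [← Finset.add_sum_erase _ _ (a := ⊤) (Finset.mem_filter.2 ⟨mem_inv.2 fun _ _ => trivial, top_sup_eq _⟩),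
    sub_eq (a := blk s 0 y) LinearMap.id Function.injective_id LinearMap.range_id fun _ => rfl,
    ← Finset.sum_bij (s := Finset.univ) (f := fun _ => mob (cl y)) (fun φ _ => gr φ), Finset.sum_const,
    Finset.card_univ, ← Nat.card_eq_fintype_card, nsmul_eq_mul] at h1
  · exact eq_neg_of_add_eq_zero_left h1
  · intro φ _
    refine Finset.mem_erase.2 ⟨fun h => ?_, Finset.mem_filter.2 ⟨mem_inv.2 (inv_range (h2 φ)), ?_⟩⟩
    · obtain ⟨a, ha⟩ := exists_ne (0 : A)
      exact ha (by simpa using ((hgr φ (a, 0)).1 (h ▸ trivial)).symm)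
    · refine eq_top_iff.2 fun v _ => Submodule.mem_sup.2
        ⟨_, ⟨v.2, rfl⟩, _, ⟨v.1 - φ.1 v.2, rfl⟩, by simp⟩
  · intro φ _ φ' _ e
    exact Subtype.ext (LinearMap.ext fun v => ((hgr φ' (φ.1 v, v)).1 (e ▸ (hgr φ _).2 rfl)).symm)
  · intro W hW
    obtain ⟨h3, h4⟩ := Finset.mem_erase.1 hW
    obtain ⟨h4, h5⟩ := Finset.mem_filter.1 h4
    have h4 := mem_inv.1 h4
    have h6 := (hs (W.comap (LinearMap.inl F A B)) (Inv.comap (fun v => by simp [blk_apply]) h4)).resolve_right
      fun h => h3 (by rw [← h5, left_eq_sup, ← Submodule.map_top, Submodule.map_le_iff_le_comap, h])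
    have h7 : ∀ a : A, (a, (0 : B)) ∈ W → a = 0 := fun a ha => (Submodule.mem_bot F).1 (h6 ▸ ha)
    let e := LinearEquiv.ofBijective (LinearMap.snd F A B ∘ₗ W.subtype) ⟨by
      rw [injective_iff_map_eq_zero]
      rintro ⟨⟨a, b⟩, hv⟩ (rfl : b = 0)
      exact Subtype.ext (Prod.ext (h7 a hv) rfl), fun b => by
      obtain ⟨w, hw, _, ⟨a, rfl⟩, h⟩ := Submodule.mem_sup.1 (h5.ge (Submodule.mem_top (x := ((0, b) : A × B))))
      exact ⟨⟨w, hw⟩, by simpa using congrArg Prod.snd h⟩⟩
    let φ : B →ₗ[F] A := LinearMap.fst F A B ∘ₗ W.subtype ∘ₗ e.symm.toLinearMap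
    have h8 : ∀ b, (φ b, b) ∈ W := fun b => by
      convert (e.symm b).2 using 1
      exact Prod.ext rfl (e.apply_symm_apply b).symm
    have h9 : ∀ v ∈ W, φ v.2 = v.1 := fun v hv =>
      sub_eq_zero.1 (h7 _ (by
        convert W.sub_mem (h8 v.2) hv using 1
        exact Prod.ext rfl (sub_self _).symm))
    refine ⟨⟨φ, fun v => by simpa [blk_apply] using h9 _ (h4 _ (h8 v))⟩, Finset.mem_univ _, ?_⟩
    ext v
    rw [hgr]
    exact ⟨fun h => by have := h8 v.2; rwa [show φ v.2 = v.1 from h] at this, h9 v⟩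
  · intro φ _
    rw [sub_eq _ (fun a b e => congrArg Prod.snd e) rfl (h2 φ)]

omit [Finite F] in
theorem card_hm_congr {y : End F B} {y' : End F V} (h : Sim y y') (s : End F A) :
    Nat.card (Hm y s) = Nat.card (Hm y' s) := by
  obtain ⟨e, he⟩ := sim_iff.1 h
  refine Nat.card_congr ((e.arrowCongr (LinearEquiv.refl F A)).toEquiv.subtypeEquiv fun φ => ?_)
  rw [e.surjective.forall]
  simp [← he]

omit [Finite F] in
theorem card_hm_blk (x : End F V) (y : End F B) (s : End F A) :
    Nat.card (Hm (blk x 0 y) s) = Nat.card (Hm x s) * Nat.card (Hm y s) := by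
  rw [← Nat.card_prod, ← Nat.card_congr (Equiv.subtypeProdEquivProd)]
  symm
  refine Nat.card_congr ((LinearMap.coprodEquiv F).toEquiv.subtypeEquiv fun φ => ⟨fun h v => ?_, fun h =>
    ⟨fun v => by simpa [blk_apply] using h (v, 0), fun v => by simpa [blk_apply] using h (0, v)⟩⟩)
  simp [blk_apply, h.1, h.2]

/-- multiplication by the root -/
noncomputable def rt (f : F[X]) : End F (AdjoinRoot f) := Algebra.lmul F _ (AdjoinRoot.root f)

omit [Finite F] in
theorem hm_mk {f g : F[X]} (φ : Hm (rt g) (rt f)) (P : F[X]) :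
    φ.1 (AdjoinRoot.mk g P) = AdjoinRoot.mk f P * φ.1 1 := by
  induction P using Polynomial.induction_on with
  | C a =>
    rw [AdjoinRoot.mk_C, AdjoinRoot.mk_C, ← AdjoinRoot.algebraMap_eq, ← AdjoinRoot.algebraMap_eq,
      Algebra.algebraMap_eq_smul_one, map_smul, Algebra.smul_def]
  | add p q hp hq => rw [map_add, map_add, hp, hq, map_add, add_mul]
  | monomial n a h =>
    rw [pow_succ, ← mul_assoc, mul_comm _ X, map_mul, map_mul (AdjoinRoot.mk f), AdjoinRoot.mk_X,
      AdjoinRoot.mk_X, mul_assoc, ← h]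
    exact φ.2 _

open Classical in
theorem card_hm_rt {f g : F[X]} (hf : Irreducible f) (hf' : f.Monic) (hg : Irreducible g) (hg' : g.Monic) :
    Nat.card (Hm (rt g) (rt f)) = if g = f then Nat.card F ^ f.natDegree else 1 := by
  have h1 : Function.Injective fun φ : Hm (rt g) (rt f) => φ.1 1 := fun φ φ' e =>
    Subtype.ext (LinearMap.ext fun v => by
      obtain ⟨P, rfl⟩ := AdjoinRoot.mk_surjective v
      rw [hm_mk, hm_mk]
      exact congrArg _ e)
  split_ifs with h
  · subst h
    have := hf'.finite_adjoinRoot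
    rw [Nat.card_eq_of_bijective _ ⟨h1, fun v => ⟨⟨LinearMap.mulRight F v, fun w => mul_assoc _ _ _⟩,
      one_mul _⟩⟩, Module.natCard_eq_pow_finrank (K := F), (AdjoinRoot.powerBasis' hf').finrank,
      AdjoinRoot.powerBasis'_dim]
  · have : Fact (Irreducible f) := ⟨hf⟩
    rw [Nat.card_eq_one_iff_exists]
    refine ⟨⟨0, fun _ => by simp⟩, fun φ => h1 ?_⟩
    have h2 := hm_mk φ g
    rw [AdjoinRoot.mk_self, map_zero, eq_comm, mul_eq_zero, AdjoinRoot.mk_eq_zero] at h2
    exact h2.resolve_left fun h3 => h (eq_of_monic_of_associated hg' hf' (hf.associated_of_dvd hg h3).symm)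

omit [Finite F] in
theorem rt_simple {f : F[X]} (hf : Irreducible f) (K : Submodule F (AdjoinRoot f))
    (hK : ∀ v ∈ K, rt f v ∈ K) : K = ⊥ ∨ K = ⊤ := by
  have : Fact (Irreducible f) := ⟨hf⟩
  have h1 : ∀ P, ∀ v ∈ K, AdjoinRoot.mk f P * v ∈ K := fun P => by
    induction P using Polynomial.induction_on with
    | C a =>
      intro v hv
      rw [AdjoinRoot.mk_C, ← AdjoinRoot.algebraMap_eq, ← Algebra.smul_def]
      exact K.smul_mem _ hv
    | add p q hp hq =>
      intro v hv
      rw [map_add, add_mul]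
      exact K.add_mem (hp v hv) (hq v hv)
    | monomial n a h =>
      intro v hv
      rw [pow_succ, ← mul_assoc, map_mul, AdjoinRoot.mk_X, mul_assoc]
      exact h _ (hK v hv)
  rw [or_iff_not_imp_left]
  intro h
  obtain ⟨v, hv, h0⟩ := Submodule.exists_mem_ne_zero_of_ne_bot h
  refine eq_top_iff.2 fun w _ => ?_
  obtain ⟨P, hP⟩ := AdjoinRoot.mk_surjective (w * v⁻¹)
  simpa [hP, h0] using h1 P v hv

open Classical in
/-- the value of the Möbius function at a semisimple class -/
noncomputable def val (q : ℂ) (L : Multiset F[X]) : ℂ :=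
  ∏ f ∈ L.toFinset, (-1) ^ L.count f * q ^ (f.natDegree * L.count f * (L.count f - 1) / 2)

open Classical in
omit [Finite F] in
theorem val_cons (q : ℂ) (a : F[X]) (L : Multiset F[X]) :
    val q (a ::ₘ L) = -(q ^ (a.natDegree * L.count a) * val q L) := by
  have h1 : ∀ L : Multiset F[X], val q L = (-1) ^ L.count a * q ^ (a.natDegree * L.count a *
      (L.count a - 1) / 2) * ∏ f ∈ L.toFinset.erase a,
        (-1) ^ L.count f * q ^ (f.natDegree * L.count f * (L.count f - 1) / 2) := fun L => by
    by_cases h : a ∈ L.toFinset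
    · exact (Finset.mul_prod_erase _ _ h).symm
    · rw [Finset.erase_eq_of_notMem h, Multiset.count_eq_zero_of_notMem (mt Multiset.mem_toFinset.2 h)]
      simp [val]
  have h2 : ∀ d m : ℕ, d * (m + 1) * (m + 1 - 1) / 2 = d * m + d * m * (m - 1) / 2 := fun d m => by
    rw [← Nat.mul_add_div two_pos]
    congr 1
    cases m with
    | zero => simp
    | succ m => simp only [Nat.add_sub_cancel]; ring
  rw [h1, h1 L, Multiset.count_cons_self, Multiset.toFinset_cons, Finset.erase_insert_eq_erase,
    Finset.prod_congr rfl fun f hf => by rw [Multiset.count_cons_of_ne (Finset.ne_of_mem_erase hf)], h2]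
  ring

open Classical in
theorem mob_rootEnd (ι : Type u) [Fintype ι] : ∀ (f : ι → F[X]), (∀ i, Irreducible (f i) ∧ (f i).Monic) →
    ∀ (V : Type u) [AddCommGroup V] [Module F V] [FiniteDimensional F V] (x : End F V),
    Sim x (rootEnd f) → mob (cl x) = val (Nat.card F) (Finset.univ.val.map f) ∧
      ∀ g, Irreducible g → g.Monic →
        Nat.card (Hm x (rt g)) = Nat.card F ^ (g.natDegree * (Finset.univ.val.map f).count g) := by
  revert ι
  refine Fintype.induction_empty_option ?_ ?_ ?_
  · intro α β _ e ih f hf V _ _ _ x hx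
    let _ := Fintype.ofEquiv β e.symm
    have := ih (f ∘ e) (fun i => hf _) V x (hx.trans (sim_rootEnd_of_equiv e fun _ => rfl).symm)
    rwa [← Multiset.map_map, Multiset.map_univ_val_equiv] at this
  · intro f hf V _ _ _ x hx
    have : Subsingleton V := (sim_iff.1 hx).choose.injective.subsingleton
    have h1 : dim (cl x) = 0 := finrank_zero_of_subsingleton
    refine ⟨?_, fun g _ _ => ?_⟩
    · rw [mob, h1, ek]
      simp [val, one_apply, h1]
    · simp only [Finset.univ_eq_empty, Finset.empty_val, Multiset.map_zero, Multiset.count_zero, mul_zero,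
        pow_zero]
      exact Nat.card_eq_one_iff_exists.2 ⟨⟨0, fun _ => by simp⟩, fun φ => Subsingleton.elim _ _⟩
  · intro α _ ih f hf V _ _ _ x hx
    have := fun i => (hf i).2.finite_adjoinRoot
    have : Fact (Irreducible (f none)) := ⟨(hf none).1⟩
    have h1 : Sim x (blk (rt (f none)) 0 (rootEnd fun i => f (some i))) :=
      hx.trans (sim_iff.2 ⟨LinearEquiv.piOptionEquivProd F, fun v => Prod.ext (add_zero _).symm rfl⟩)
    obtain ⟨h2, h3⟩ := ih (fun i => f (some i)) (fun i => hf _) _ _ (Sim.refl _)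
    have h4 : Finset.univ.val.map f = f none ::ₘ Finset.univ.val.map fun i => f (some i) := by
      change Multiset.map f (none ::ₘ Finset.univ.val.map some) = _
      rw [Multiset.map_cons, Multiset.map_map]
      rfl
    rw [h4]
    refine ⟨?_, fun g h5 h6 => ?_⟩
    · rw [cl_eq_iff.2 h1, mob_blk (rt_simple (hf none).1), h2, h3 _ (hf none).1 (hf none).2, val_cons,
        Nat.cast_pow]
    · have := h6.finite_adjoinRoot
      rw [card_hm_congr h1, card_hm_blk, h3 g h5 h6, card_hm_rt h5 h6 (hf none).1 (hf none).2,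
        Multiset.count_cons]
      by_cases h : f none = g
      · rw [if_pos h, if_pos h.symm]; ring
      · rw [if_neg h, if_neg (Ne.symm h), one_mul, add_zero]

end Cfsg.Agent.Hall
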