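import Cfsg.Agent.Hall.GG
import Cfsg.Agent.Hall.Count
/-!
# Cuspidal characters and Harish-Chandra series of generic characters
-/
set_option autoImplicit false
set_option linter.unusedSectionVars false

namespace Cfsg.Agent.Hall
open Module Cfsg Cfsg.Agent.GLn Cfsg.Agent.CharLib
open scoped MatrixGroups ComplexConjugate

universe u

variable {F : Type u} [Field F] [Finite F] {ψ : AddChar F ℂ}

/-- cuspidal characters -/
def Cusp (n : ℕ) (σ : CF F) : Prop :=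
  IsIr n σ ∧ 0 < n ∧ ∀ a k ρ π, 0 < a → 0 < k → a + k = n → IsIr a ρ → IsIr k π → inn n σ (ρ * π) = 0

namespace Cusp
variable {n : ℕ} {σ : CF F} (h : Cusp n σ)
include h

theorem adj_eq_zero {a k : ℕ} (ha : 0 < a) (hk : 0 < k) (e : a + k = n) {ρ : CF F} (hρ : IsIr a ρ) :
    adj a ρ σ = 0 := by
  subst e
  exact (h.1.1.adj ρ).eq_zero fun π hπ => by rw [inn_adj hρ.1, h.2.2 a k ρ π ha hk rfl hρ hπ]

theorem dk_eq_zero {i : ℕ} (hi : 0 < i) (hi' : i < n) : dk ψ i σ = 0 := by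
  obtain ⟨a, rfl⟩ : ∃ a, n = a + i := ⟨n - i, by omega⟩
  exact h.1.1.dk.eq_zero fun ρ hρ => by rw [← del_adj, h.adj_eq_zero (by omega) hi rfl hρ, map_zero]

theorem degree (hψ : ψ ≠ 1) : σ (gcl (1 : GL (Fin n) F)) =
    (∏ i ∈ Finset.Ico 1 n, ((Nat.card F : ℂ) ^ i - 1)) * del ψ n σ := by
  rw [← degree_eq hψ h.2.1 (finrank_fin_fun F) fun i h1 h2 => h.dk_eq_zero h1 h2, gcl, Units.val_one,
    Matrix.toLin'_one]
  rfl

theorem del_eq_one (hψ : ψ ≠ 1) : del ψ n σ = 1 :=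
  h.1.del_eq_one hψ (right_ne_zero_of_mul ((h.degree hψ).symm.trans_ne h.1.one_ne_zero))

theorem dk_cases (i : ℕ) : dk ψ i σ = σ ∨ ∃ c : ℂ, dk ψ i σ = c • (1 : CF F) := by
  rcases Nat.eq_zero_or_pos i with rfl | hi
  · exact Or.inl (dk_zero σ)
  rcases lt_trichotomy i n with h1 | rfl | h1
  · exact Or.inr ⟨0, by rw [h.dk_eq_zero hi h1, zero_smul]⟩
  · exact Or.inr ⟨_, (Hom.dk (a := 0) (by simpa using h.1.1)).eq_smul_one⟩
  · exact Or.inr ⟨0, by rw [h.1.1.dk_eq_zero h1, zero_smul]⟩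

theorem cc_eq_zero {a k : ℕ} (ha : 0 < a) (hk : 0 < k) (e : a + k = n) (y : GL (Fin a) F) (c : Cls F) :
    cc (Matrix.toLin' (y : Matrix (Fin a) (Fin a) F)) σ c = 0 := by
  have := Fintype.ofFinite (GL (Fin a) F)
  refine congrFun (classFun_eq_zero (f := fun y : GL (Fin a) F =>
    cc (Matrix.toLin' (y : Matrix (Fin a) (Fin a) F)) σ c) (fun g k => ?_) fun χ hχ => ?_) y
  · exact congrArg (fun f : CF F →ₗ[ℂ] CF F => f σ c)
      (cc_congr (gcl_eq_iff.2 (isConj_iff.2 ⟨k, rfl⟩).symm))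
  · have h1 := map_adj ⟨⟨fun φ : CF F => φ c, fun _ _ => rfl⟩, fun _ _ => rfl⟩ a (ofG χ) σ
    rw [h.adj_eq_zero ha hk e (ρ := ofG χ) (irEquiv F a ⟨χ, hχ⟩).2, map_zero, av_eq] at h1
    rw [classInner, ← mat_ofG (isChar_classFun (isChar_of_irr hχ))]
    exact h1.symm

end Cusp

theorem inn_ne_zero_of_common {n : ℕ} {φ χ π : CF F} (h : IsCh n φ) (h' : IsCh n χ) (hπ : IsIr n π)
    (h1 : inn n φ π ≠ 0) (h2 : inn n χ π ≠ 0) : inn n φ χ ≠ 0 := by
  have := Fintype.ofFinite (GL (Fin n) F)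
  rw [inn_eq] at h1 h2 ⊢
  exact inner_ne_zero_of_common h.2 h'.2 hπ.2 h1 h2

theorem ne_zero_of_nat {n : ℕ} {f : CF F →ₗ[ℂ] ℂ} (hf : ∀ φ, IsCh n φ → ∃ m : ℕ, f φ = m) {φ π : CF F}
    (h : IsCh n φ) (hπ : IsIr n π) (h1 : inn n φ π ≠ 0) (h2 : f π ≠ 0) : f φ ≠ 0 := by
  obtain ⟨a, ha⟩ := hf _ (h.sub hπ h1)
  obtain ⟨b, hb⟩ := hf _ hπ.isCh
  rw [map_sub, sub_eq_iff_eq_add, hb, ← Nat.cast_add] at ha
  rw [hb, Nat.cast_ne_zero] at h2
  rw [ha, Nat.cast_ne_zero]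
  omega

noncomputable instance instAlgebraCF : Algebra ℂ (CF F) := Algebra.ofModule smul_mul mul_smul'

theorem inn_mul_left {a b : ℕ} {φ ρ χ π : CF F} (h : IsCh a φ) (hρ : IsIr a ρ) (h1 : inn a φ ρ ≠ 0)
    (hχ : IsCh b χ) (hπ : IsCh (a + b) π) (h2 : inn (a + b) (ρ * χ) π ≠ 0) :
    inn (a + b) (φ * χ) π ≠ 0 :=
  ne_zero_of_nat (f := innL (a + b) π ∘ₗ LinearMap.mulRight ℂ χ) (fun _ h => inn_nat (h.mul hχ) hπ)
    h hρ h1 h2

theorem inn_mul {a b : ℕ} {φ ρ χ ρ' π : CF F} (h : IsCh a φ) (hρ : IsIr a ρ) (h1 : inn a φ ρ ≠ 0)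
    (hχ : IsCh b χ) (hρ' : IsIr b ρ') (h2 : inn b χ ρ' ≠ 0) (hπ : IsCh (a + b) π)
    (h3 : inn (a + b) (ρ * ρ') π ≠ 0) : inn (a + b) (φ * χ) π ≠ 0 := by
  refine inn_mul_left h hρ h1 hχ hπ ?_
  rw [add_comm, mul_comm] at h3 ⊢
  exact inn_mul_left hχ hρ' h2 hρ.isCh (add_comm a b ▸ hπ) h3

theorem gen_unique (hψ : ψ ≠ 1) {n : ℕ} {φ π π' : CF F} (h : IsCh n φ) (h0 : del ψ n φ = 1)
    (hπ : IsIr n π) (hπ' : IsIr n π') (h1 : del ψ n π ≠ 0) (h1' : del ψ n π' ≠ 0)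
    (h2 : inn n φ π ≠ 0) (h2' : inn n φ π' ≠ 0) : π = π' := by
  by_contra hne
  have h3 : inn n π π' = 0 := by
    by_contra h3
    exact hne (hπ.eq_of_inn hπ' h3)
  refine ne_zero_of_nat (f := del ψ n) (fun _ h => h.del_nat hψ) (h.sub hπ h2) hπ' ?_ h1' ?_
  · rwa [← innL_apply, map_sub, innL_apply, innL_apply, h3, sub_zero]
  · rw [map_sub, h0, hπ.del_eq_one hψ h1, sub_self]

/-- cuspidal characters with their degrees -/
abbrev Cu (F : Type u) [Field F] [Finite F] := {p : ℕ × CF F // Cusp p.1 p.2}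

/-- the product of a multiset of cuspidal characters -/
noncomputable def pr (A : Multiset (Cu F)) : CF F := (A.map fun p => p.1.2).prod

/-- the total degree -/
def tot (A : Multiset (Cu F)) : ℕ := (A.map fun p => p.1.1).sum

theorem pr_add (A B : Multiset (Cu F)) : pr (A + B) = pr A * pr B := by simp [pr]
theorem tot_add (A B : Multiset (Cu F)) : tot (A + B) = tot A + tot B := by simp [tot]
theorem pr_cons (a : Cu F) (B : Multiset (Cu F)) : pr (a ::ₘ B) = a.1.2 * pr B := by simp [pr]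
theorem tot_cons (a : Cu F) (B : Multiset (Cu F)) : tot (a ::ₘ B) = a.1.1 + tot B := by simp [tot]

theorem tot_pos {A : Multiset (Cu F)} (h : A ≠ 0) : 0 < tot A := by
  obtain ⟨a, ha⟩ := Multiset.exists_mem_of_ne_zero h
  obtain ⟨B, rfl⟩ := Multiset.exists_cons_of_mem ha
  have := a.2.2.1
  rw [tot_cons]
  omega

theorem isCh_pr (A : Multiset (Cu F)) : IsCh (tot A) (pr A) := by
  induction A using Multiset.induction with
  | empty => exact isIr_one.isCh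
  | cons a A ih =>
    rw [pr_cons, tot_cons]
    exact a.2.1.isCh.mul ih

theorem del_pr (hψ : ψ ≠ 1) (A : Multiset (Cu F)) : del ψ (tot A) (pr A) = 1 := by
  induction A using Multiset.induction with
  | empty => exact del_one
  | cons a A ih => rw [pr_cons, tot_cons, del_mul hψ a.2.1.1, ih, a.2.del_eq_one hψ, one_mul]

theorem exists_gen (hψ : ψ ≠ 1) (A : Multiset (Cu F)) :
    ∃ π, IsIr (tot A) π ∧ inn (tot A) (pr A) π ≠ 0 ∧ del ψ (tot A) π ≠ 0 :=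
  (isCh_pr A).1.exists_inn_ne_zero _ (by rw [del_pr hψ]; exact one_ne_zero)

theorem dk_pr_mem (hψ : ψ ≠ 1) (B : Multiset (Cu F)) (k : ℕ) :
    dk ψ k (pr B) ∈ Submodule.span ℂ (pr '' {J | J ≤ B}) := by
  induction B using Multiset.induction generalizing k with
  | empty =>
    rcases Nat.eq_zero_or_pos k with rfl | hk
    · rw [dk_zero]
      exact Submodule.subset_span ⟨0, le_refl (0 : Multiset (Cu F)), rfl⟩
    · rw [(isCh_pr 0).1.dk_eq_zero hk]
      exact zero_mem _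
  | cons a B ih =>
    rw [pr_cons, dk_mul hψ]
    refine Submodule.sum_mem _ fun i _ => ?_
    rcases a.2.dk_cases (ψ := ψ) i with h | ⟨c, h⟩
    · rw [h]
      refine (Submodule.span_le (p := Submodule.comap (LinearMap.mulLeft ℂ a.1.2)
        (Submodule.span ℂ (pr '' {J | J ≤ a ::ₘ B})))).2 ?_ (ih (k - i))
      rintro _ ⟨J, hJ, rfl⟩
      exact Submodule.subset_span ⟨a ::ₘ J, Multiset.cons_le_cons a hJ, pr_cons _ _⟩
    · rw [h, smul_mul, one_mul]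
      exact Submodule.smul_mem _ _ (Submodule.span_mono
        (Set.image_mono fun J hJ => le_trans hJ (Multiset.le_cons_self _ _)) (ih _))

theorem exists_series (n : ℕ) {π : CF F} (hπ : IsIr n π) :
    ∃ A : Multiset (Cu F), tot A = n ∧ inn n (pr A) π ≠ 0 := by
  induction n using Nat.strong_induction_on generalizing π with
  | _ n ih =>
  by_cases h : Cusp n π
  · refine ⟨{⟨(n, π), h⟩}, by simp [tot], ?_⟩
    simp [pr, hπ.inn_self]
  rcases Nat.eq_zero_or_pos n with rfl | hn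
  · refine ⟨0, rfl, ?_⟩
    have h1 := hπ.inn_self
    change inn 0 1 π ≠ 0
    rw [inn_comm isIr_one.isCh hπ.isCh]
    intro h2
    rw [← innL_apply, hπ.1.eq_smul_one, map_smul, innL_apply, isIr_one.inn_self, smul_eq_mul,
      mul_one] at h2
    rw [← innL_apply, hπ.1.eq_smul_one, h2, zero_smul, map_zero] at h1
    exact zero_ne_one h1
  simp only [Cusp, hπ, hn, true_and, not_forall] at h
  obtain ⟨a, k, ρ, ρ', ha, hk, rfl, hρ, hρ', h⟩ := h
  obtain ⟨A, rfl, hA⟩ := ih a (by omega) hρ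
  obtain ⟨B, rfl, hB⟩ := ih k (by omega) hρ'
  refine ⟨A + B, tot_add _ _, ?_⟩
  rw [pr_add]
  exact inn_mul (isCh_pr A) hρ hA (isCh_pr B) hρ' hB hπ.isCh
    (by rwa [inn_comm (hρ.isCh.mul hρ'.isCh) hπ.isCh])

theorem deg_eq_of_inn {n m : ℕ} {φ χ : CF F} (h : Hom m φ) (h0 : inn n φ χ ≠ 0) : n = m := by
  obtain ⟨g, hg⟩ := exists_of_av_ne_zero h0
  exact (dim_gcl g).symm.trans (h _ (left_ne_zero_of_mul hg)).1

theorem eq_singleton {a : Cu F} {B : Multiset (Cu F)} (h : inn a.1.1 (pr B) a.1.2 ≠ 0) : B = {a} := by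
  have h0 := deg_eq_of_inn (isCh_pr B).1 h
  have h1 : B ≠ 0 := by
    rintro rfl
    exact a.2.2.1.ne' h0
  obtain ⟨b, hb⟩ := Multiset.exists_mem_of_ne_zero h1
  obtain ⟨B, rfl⟩ := Multiset.exists_cons_of_mem hb
  rw [tot_cons] at h0
  rw [pr_cons] at h
  by_cases h2 : B = 0
  · subst h2
    have h3 : a.1.1 = b.1.1 := h0
    rw [show pr (0 : Multiset (Cu F)) = 1 from rfl, mul_one] at h
    rw [Subtype.ext (Prod.ext h3.symm ((h3 ▸ b.2.1).eq_of_inn a.2.1 h)) (a1 := b) (a2 := a)]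
    rfl
  · obtain ⟨π, h3, -, h4⟩ := (isCh_pr B).1.exists_inn_ne_zero
      (innL a.1.1 a.1.2 ∘ₗ LinearMap.mulLeft ℂ b.1.2) h
    refine absurd ?_ h4
    change inn _ (b.1.2 * π) _ = 0
    rw [← inn_conj, a.2.2.2 _ _ _ _ b.2.2.1 (tot_pos h2) h0.symm b.2.1 h3, map_zero]

theorem series_unique (hψ : ψ ≠ 1) (n : ℕ) {π : CF F} (hπ : IsIr n π) (h0 : del ψ n π ≠ 0)
    {A B : Multiset (Cu F)} (hA : inn n (pr A) π ≠ 0) (hB : inn n (pr B) π ≠ 0) : A = B := by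
  induction n using Nat.strong_induction_on generalizing π A B with
  | _ n ih =>
  have key : ∀ {A B : Multiset (Cu F)}, inn n (pr A) π ≠ 0 → inn n (pr B) π ≠ 0 → ∀ I, I < A → I ≤ B := by
    intro A B hA hB I hI
    obtain ⟨I', rfl⟩ := Multiset.le_iff_exists_add.1 hI.le
    have h1 := tot_pos (A := I') fun e => by simp [e] at hI
    obtain rfl := (deg_eq_of_inn (isCh_pr _).1 hA).trans (tot_add _ _)
    have h2 := deg_eq_of_inn (isCh_pr _).1 hB
    obtain ⟨ρ, hρ, hρ1, hρ2⟩ := exists_gen hψ I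
    obtain ⟨ρ', hρ', hρ1', hρ2'⟩ := exists_gen hψ I'
    have h3 := hρ.isCh.mul hρ'.isCh
    obtain ⟨π', hπ', h4, h5⟩ := h3.1.exists_inn_ne_zero (del ψ (tot I + tot I'))
      (by rw [del_mul hψ hρ.1]; exact mul_ne_zero hρ2 hρ2')
    have h6 := inn_mul (isCh_pr I) hρ hρ1 (isCh_pr I') hρ' hρ1' hπ'.isCh h4
    rw [← pr_add] at h6
    obtain rfl : π = π' := gen_unique hψ (tot_add I I' ▸ isCh_pr _) (tot_add I I' ▸ del_pr hψ _)
      hπ hπ' h0 h5 hA h6
    have h7 : IsCh (tot I + tot I') (pr B) := h2 ▸ isCh_pr B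
    have h8 := inn_ne_zero_of_common h7 h3 hπ hB h4
    rw [← inn_adj hρ.1] at h8
    have h9 := ne_zero_of_nat (f := del ψ _) (fun _ h => h.del_nat hψ) (hρ.isCh.adj h7) hρ' h8 hρ2'
    rw [del_adj] at h9
    by_contra h10
    refine h9 ((Submodule.span_le (p := LinearMap.ker (innL (tot I) ρ))).2 ?_ (dk_pr_mem hψ B _))
    rintro _ ⟨J, hJ, rfl⟩
    by_contra h11
    exact h10 (ih _ (by omega) hρ hρ2 hρ1 h11 ▸ hJ)
  have h1 := deg_eq_of_inn (isCh_pr _).1 hA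
  have h2 := deg_eq_of_inn (isCh_pr _).1 hB
  rcases Nat.lt_or_ge A.card 2 with h3 | h3
  · rcases Nat.eq_zero_or_pos A.card with h4 | h4
    · rw [Multiset.card_eq_zero] at h4
      subst h4
      by_contra h5
      exact (tot_pos (Ne.symm h5)).ne' (h2.symm.trans h1)
    · obtain ⟨a, rfl⟩ := Multiset.card_eq_one.1 (by omega : A.card = 1)
      obtain rfl : n = a.1.1 := by simpa [tot] using h1
      obtain rfl : a.1.2 = π := a.2.1.eq_of_inn hπ (by simpa [pr] using hA)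
      exact (eq_singleton hB).symm
  · exact multiset_eq_of_proper (d := fun p : Cu F => p.1.1) (fun p => p.2.2.1) (h1.symm.trans h2) h3
      (key hA hB) (key hB hA)

theorem series_equiv (hψ : ψ ≠ 1) (n : ℕ) : Nonempty ({A : Multiset (Cu F) // (A.map fun p => p.1.1).sum = n} ≃
    {φ : CF F // IsIr n φ ∧ del ψ n φ ≠ 0}) := by
  have : ∀ A : {A : Multiset (Cu F) // (A.map fun p => p.1.1).sum = n},
      ∃ π : {φ : CF F // IsIr n φ ∧ del ψ n φ ≠ 0}, inn n (pr A.1) π.1 ≠ 0 := by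
    rintro ⟨A, rfl⟩
    obtain ⟨π, h1, h2, h3⟩ := exists_gen hψ A
    exact ⟨⟨π, h1, h3⟩, h2⟩
  choose f hf using this
  refine ⟨Equiv.ofBijective f ⟨fun A B e => Subtype.ext
    (series_unique hψ n (f A).2.1 (f A).2.2 (hf A) (by rw [e]; exact hf B)), fun π => ?_⟩⟩
  obtain ⟨A, h1, hA⟩ := exists_series n π.2.1
  have h2 := isCh_pr A
  have h3 := del_pr hψ A
  rw [h1] at h2 h3
  exact ⟨⟨A, h1⟩, Subtype.ext (gen_unique hψ h2 h3 (f ⟨A, h1⟩).2.1 π.2.1 (f ⟨A, h1⟩).2.2 π.2.2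
    (hf ⟨A, h1⟩) hA)⟩

theorem exists_addChar (F : Type u) [Field F] [Finite F] : ∃ ψ : AddChar F ℂ, ψ ≠ 1 :=
  ⟨_, by simpa using AddChar.FiniteField.primitiveChar_to_Complex_isPrimitive F (one_ne_zero (α := F))⟩

theorem totient_le_card_cusp {n : ℕ} (hn : 0 < n) :
    Nat.totient (Nat.card F ^ n - 1) ≤ n * Nat.card {p : Cu F // p.1.1 = n} := by
  obtain ⟨ψ, hψ⟩ := exists_addChar F
  have h1 : ∀ n, Finite {A : Multiset (Cu F) // (A.map fun p => p.1.1).sum = n} := fun n =>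
    have : Finite {φ : CF F // IsIr n φ ∧ del ψ n φ ≠ 0} :=
      Finite.of_injective (fun φ => (⟨φ.1, φ.2.1⟩ : {φ : CF F // IsIr n φ}))
        fun _ _ e => Subtype.ext (congrArg (fun x => x.1) e)
    Finite.of_equiv _ (series_equiv hψ n).some.symm
  have h2 : ∀ n, Finite {A : Multiset (Irr0 F) // (A.map fun f => f.1.natDegree).sum = n} := fun n =>
    have : Finite {f : Polynomial F // f.Monic ∧ f.natDegree = n} :=
      Nat.finite_of_card_ne_zero (by rw [card_monic]; exact pow_ne_zero _ Nat.card_pos.ne')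
    have : Finite {f : Polynomial F // f.Monic ∧ f.natDegree = n ∧ f.coeff 0 ≠ 0} :=
      Finite.of_injective (fun φ => (⟨φ.1, φ.2.1, φ.2.2.1⟩ : {f : Polynomial F // f.Monic ∧ f.natDegree = n}))
        fun _ _ e => Subtype.ext (congrArg (fun x => x.1) e)
    Finite.of_equiv _ (card_multiset_irr0 n).some.symm
  have h3 : ∀ f : Irr0 F, 0 < f.1.natDegree := fun f => f.2.2.1.natDegree_pos
  have := (card_multiset_split (n := n) h3).1
  rw [card_eq_of_multiset (fun p : Cu F => p.2.2.1) h3 (fun n hn => ?_) h1 h2]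
  · exact totient_le hn
  · obtain ⟨m, rfl⟩ : ∃ m, n = m + 1 := ⟨n - 1, by omega⟩
    rw [Nat.card_congr (series_equiv hψ _).some, Nat.card_congr (card_multiset_irr0 _).some,
      card_generic hψ, card_monic_coeff_zero m (· ≠ 0), Nat.card_congr unitsEquivNeZero]

end Cfsg.Agent.Hall
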